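import Mathlib

set_option autoImplicit false

/-! Squares in a group whose centre has order 2 and contains all commutators: a quadratic map
with values in the integers modulo 2. -/

namespace CfsgLib.Leech

variable {P : Type*} [Group P]

/-- `0` for the identity, `1` otherwise. -/
noncomputable def bitOf (c : P) : ZMod 2 :=
  haveI := Classical.propDecidable (c = 1)
  if c = 1 then 0 else 1

theorem bitOf_eq_zero {c : P} : bitOf c = 0 ↔ c = 1 := by
  unfold bitOf
  split <;> simp [*]

theorem bitOf_one : bitOf (1 : P) = 0 := bitOf_eq_zero.2 rfl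

theorem center_cases (hZ : Nat.card (Subgroup.center P) = 2) {a b : P}
    (ha : a ∈ Subgroup.center P) (hb : b ∈ Subgroup.center P) (ha1 : a ≠ 1) (hb1 : b ≠ 1) :
    a = b := by
  obtain ⟨u, v, huv, huniv⟩ := Nat.card_eq_two_iff.1 hZ
  have key : ∀ c : Subgroup.center P, c = u ∨ c = v := fun c => by
    have : c ∈ ({u, v} : Set (Subgroup.center P)) := huniv ▸ Set.mem_univ c
    simpa using this
  rcases key ⟨a, ha⟩ with r | r <;> rcases key ⟨b, hb⟩ with s | s <;>
    rcases key 1 with t | t <;>
    first
      | exact congrArg Subtype.val (r.trans s.symm)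
      | exact absurd (congrArg Subtype.val (r.trans t.symm)) ha1
      | exact absurd (congrArg Subtype.val (s.trans t.symm)) hb1

theorem bitOf_mul (hZ : Nat.card (Subgroup.center P) = 2) {a b : P}
    (ha : a ∈ Subgroup.center P) (hb : b ∈ Subgroup.center P) :
    bitOf (a * b) = bitOf a + bitOf b := by
  by_cases ha1 : a = 1
  · simp [ha1, bitOf_one]
  by_cases hb1 : b = 1
  · simp [hb1, bitOf_one]
  have hab := center_cases hZ ha hb ha1 hb1
  have hinv : a⁻¹ = a := center_cases hZ (inv_mem ha) ha (by simpa using ha1) ha1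
  have : a * b = 1 := by
    rw [← hab]
    conv_lhs => arg 2; rw [← hinv]
    exact mul_inv_cancel a
  rw [this, bitOf_one]
  unfold bitOf
  rw [if_neg ha1, if_neg hb1]
  rfl

/-- The commutator pairing. -/
def pairing (a b : P) : P := a⁻¹ * b * a * b⁻¹

variable (hC : ∀ a b : P, pairing a b ∈ Subgroup.center P)
include hC

theorem pairing_mul_right (a b d : P) : pairing a (b * d) = pairing a b * pairing a d := by
  have h := Subgroup.mem_center_iff.1 (hC a d) b⁻¹
  calc pairing a (b * d) = a⁻¹ * b * a * (pairing a d * b⁻¹) := by simp only [pairing]; group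
    _ = a⁻¹ * b * a * (b⁻¹ * pairing a d) := by rw [h]
    _ = _ := by simp only [pairing]; group

theorem pairing_mul_left (a a' b : P) : pairing (a * a') b = pairing a b * pairing a' b := by
  have h := Subgroup.mem_center_iff.1 (hC a b) a'⁻¹
  calc pairing (a * a') b = a'⁻¹ * pairing a b * (b * a' * b⁻¹) := by simp only [pairing]; group
    _ = pairing a b * a'⁻¹ * (b * a' * b⁻¹) := by rw [h]
    _ = _ := by simp only [pairing]; group

theorem sq_mul (a b : P) : (a * b) ^ 2 = a ^ 2 * pairing a b * b ^ 2 := by
  simp only [pairing, sq]; group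

/-- The square map is quadratic. -/
theorem bitOf_sq_quad (hZ : Nat.card (Subgroup.center P) = 2)
    (hS : ∀ a : P, a ^ 2 ∈ Subgroup.center P) (a b c : P) :
    bitOf ((a * b * c) ^ 2) + bitOf (a ^ 2) + bitOf (b ^ 2) + bitOf (c ^ 2) =
      bitOf ((a * b) ^ 2) + bitOf ((a * c) ^ 2) + bitOf ((b * c) ^ 2) := by
  have key : ∀ x y : P, bitOf ((x * y) ^ 2) = bitOf (x ^ 2) + bitOf (pairing x y) + bitOf (y ^ 2) := by
    intro x y
    rw [sq_mul hC, bitOf_mul hZ (mul_mem (hS x) (hC x y)) (hS y), bitOf_mul hZ (hS x) (hC x y)]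
  rw [key (a * b) c, pairing_mul_left hC, bitOf_mul hZ (hC a c) (hC b c), key a b, key a c, key b c]
  generalize bitOf (a ^ 2) = x
  generalize bitOf (b ^ 2) = y
  generalize bitOf (c ^ 2) = z
  generalize bitOf (pairing a b) = p
  generalize bitOf (pairing a c) = q
  generalize bitOf (pairing b c) = r
  revert x y z p q r
  decide

end CfsgLib.Leech
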