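import Mathlib
import Cfsg.Agent.Leech.Monster.ClassTwo

set_option autoImplicit false

/-! An abelian subgroup of a group with centre of order 2 containing all commutators is small. -/

namespace CfsgLib.Leech

variable {P : Type*} [Group P] [Finite P]

theorem abelian_card_sq_le (hC : ∀ a b : P, pairing a b ∈ Subgroup.center P)
    (hZ : Nat.card (Subgroup.center P) = 2) (A : Subgroup P)
    (hA : ∀ a ∈ A, ∀ b ∈ A, a * b = b * a) :
    Nat.card A * Nat.card A ≤ 2 * Nat.card P := by
  classical
  have key : ∀ s : Finset P, Nat.card A * Nat.card A ≤
      Nat.card (A ⊓ Subgroup.centralizer (s : Set P) : Subgroup P) *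
        Nat.card (A ⊔ Subgroup.closure (s : Set P) : Subgroup P) := by
    intro s
    induction s using Finset.induction with
    | empty =>
      refine Nat.mul_le_mul ?_ ?_
      · rw [show A ⊓ Subgroup.centralizer ((∅ : Finset P) : Set P) = A from inf_eq_left.2
          fun x _ => Subgroup.mem_centralizer_iff.2 (by simp)]
      · exact Nat.le_of_dvd Nat.card_pos (Subgroup.card_dvd_of_le le_sup_left)
    | insert x s _ ih =>
      set H := A ⊔ Subgroup.closure (s : Set P) with hH
      set H' := A ⊔ Subgroup.closure ((insert x s : Finset P) : Set P) with hH'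
      set C := A ⊓ Subgroup.centralizer (s : Set P) with hCd
      set C' := A ⊓ Subgroup.centralizer ((insert x s : Finset P) : Set P) with hC'
      refine ih.trans ?_
      have hle : H ≤ H' := sup_le_sup_left (Subgroup.closure_mono (by simp)) A
      by_cases hx : x ∈ H
      · -- nothing changes
        have hCC : C ≤ C' := by
          refine le_inf inf_le_left fun a ha => Subgroup.mem_centralizer_iff.2 fun y hy => ?_
          have hH_le : H ≤ Subgroup.centralizer ({a} : Set P) := by
            refine sup_le (fun b hb => ?_) ((Subgroup.closure_le _).2 fun b hb => ?_)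
            · exact Subgroup.mem_centralizer_iff.2 fun c hc => by
                rw [Set.mem_singleton_iff.1 hc]; exact hA a (inf_le_left (b := Subgroup.centralizer (s : Set P)) ha) b hb
            · exact Subgroup.mem_centralizer_iff.2 fun c hc => by
                rw [Set.mem_singleton_iff.1 hc]
                exact (Subgroup.mem_centralizer_iff.1 (Subgroup.mem_inf.1 ha).2 b hb).symm
          rcases (by simpa using hy : y = x ∨ y ∈ s) with rfl | hy'
          · exact (Subgroup.mem_centralizer_iff.1 (hH_le hx) a rfl).symm
          · exact Subgroup.mem_centralizer_iff.1 (Subgroup.mem_inf.1 ha).2 y hy'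
        exact Nat.mul_le_mul (Nat.le_of_dvd Nat.card_pos (Subgroup.card_dvd_of_le hCC))
          (Nat.le_of_dvd Nat.card_pos (Subgroup.card_dvd_of_le hle))
      · have h2H : 2 * Nat.card H ≤ Nat.card H' := by
          have hlt : H < H' := lt_of_le_of_ne hle fun h => hx (h ▸
            Subgroup.mem_sup_right (Subgroup.subset_closure (by simp)))
          have hdvd := Subgroup.card_dvd_of_le hle
          obtain ⟨k, hk⟩ := hdvd
          rcases k with _ | _ | k
          · have := Nat.card_pos (α := H'); omega
          · exfalso
            exact hlt.ne (Subgroup.eq_of_le_of_card_ge hle (by omega))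
          · rw [hk]; nlinarith
        let f : C →* Subgroup.center P :=
          MonoidHom.mk' (fun a => ⟨pairing (a : P) x, hC _ _⟩)
            (fun a b => Subtype.ext (pairing_mul_left hC _ _ _))
        have hker : f.ker.map C.subtype ≤ C' := by
          rintro _ ⟨a, ha, rfl⟩
          refine ⟨(Subgroup.mem_inf.1 a.2).1, Subgroup.mem_centralizer_iff.2 fun y hy => ?_⟩
          rcases (by simpa using hy : y = x ∨ y ∈ s) with rfl | hy'
          · have h1 : pairing (a : P) y = 1 := congrArg Subtype.val ha
            simp only [pairing] at h1
            show y * (a : P) = a * y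
            calc y * (a : P) = a * (((a : P))⁻¹ * y * a * y⁻¹) * y := by group
              _ = a * y := by rw [h1, mul_one]
          · exact Subgroup.mem_centralizer_iff.1 (Subgroup.mem_inf.1 a.2).2 y hy'
        have hCC : Nat.card C ≤ 2 * Nat.card C' := by
          rw [← Subgroup.card_mul_index f.ker, Subgroup.index_ker, mul_comm 2]
          refine Nat.mul_le_mul ?_ ?_
          · rw [← Subgroup.card_map_of_injective (K := f.ker) (Subgroup.subtype_injective C)]
            exact Nat.le_of_dvd Nat.card_pos (Subgroup.card_dvd_of_le hker)
          · rw [← hZ]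
            exact Nat.le_of_dvd Nat.card_pos (Subgroup.card_subgroup_dvd_card _)
        calc Nat.card C * Nat.card H ≤ 2 * Nat.card C' * Nat.card H := Nat.mul_le_mul_right _ hCC
          _ = Nat.card C' * (2 * Nat.card H) := by ring
          _ ≤ Nat.card C' * Nat.card H' := Nat.mul_le_mul_left _ h2H
  cases nonempty_fintype P
  refine (key Finset.univ).trans (Nat.mul_le_mul ?_ ?_)
  · rw [← hZ]
    refine Nat.le_of_dvd Nat.card_pos (Subgroup.card_dvd_of_le (inf_le_right.trans ?_))
    intro a ha
    exact Subgroup.mem_center_iff.2 fun b => Subgroup.mem_centralizer_iff.1 ha b (by simp)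
  · exact Nat.le_of_dvd Nat.card_pos (Subgroup.card_subgroup_dvd_card _)

end CfsgLib.Leech
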