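import Mathlib
import Cfsg.Agent.Leech.Forms
import Cfsg.Agent.Leech.Monster.ClassTwo
import Cfsg.Agent.Eq.Def_MonsterType
import Cfsg.Prelude.Def_MonsterType

set_option autoImplicit false

/-! The Monster-type setting: `z` generates the centre of `Q`, and squaring in `Q` is the norm
modulo 2 of the lattice. -/

namespace CfsgLib.Leech

open Cfsg

section

variable {G : Type*} [Group G] {z : G} {Q : Subgroup (Subgroup.centralizer ({z} : Set G))}

/-- `z` inside its centraliser. -/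
def zElt (z : G) : Subgroup.centralizer ({z} : Set G) :=
  ⟨z, Subgroup.mem_centralizer_iff.2 fun g hg => by rw [Set.mem_singleton_iff.1 hg]⟩

theorem zElt_central (h : Subgroup.centralizer ({z} : Set G)) : h * zElt z = zElt z * h := by
  apply Subtype.ext
  have := Subgroup.mem_centralizer_iff.1 h.2 z rfl
  exact this.symm

theorem setting_zElt_mem {w : ℕ} (hS : IsExtraspecialCentralizerSetting z Q w) : zElt z ∈ Q := by
  obtain ⟨-, hF, -, -, -⟩ := hS
  have hN : (Subgroup.zpowers (zElt z)).Normal := by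
    refine ⟨fun n hn g => ?_⟩
    obtain ⟨k, rfl⟩ := Subgroup.mem_zpowers_iff.1 hn
    have hc : Commute g (zElt z ^ k) := Commute.zpow_right (zElt_central g) k
    rw [hc.eq, mul_inv_cancel_right]
    exact Subgroup.zpow_mem_zpowers _ k
  rw [← hF]
  refine Subgroup.mem_sup_right ?_
  haveI : IsMulCommutative (Subgroup.zpowers (zElt z)) := inferInstance
  letI : CommGroup (Subgroup.zpowers (zElt z)) :=
    { (inferInstance : Group (Subgroup.zpowers (zElt z))) with
      mul_comm := fun a b => mul_comm' a b }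
  have hle : Subgroup.zpowers (zElt z) ≤ fittingSubgroup (Subgroup.centralizer ({z} : Set G)) :=
    le_sSup ⟨hN, inferInstance⟩
  exact hle (Subgroup.mem_zpowers _)

theorem setting_zElt_ne_one {w : ℕ} (hS : IsExtraspecialCentralizerSetting z Q w) :
    zElt z ≠ 1 := fun h => by
  have h2 := hS.1
  rw [show z = 1 from congrArg Subtype.val h, orderOf_one] at h2
  exact absurd h2 (by norm_num)

/-- The two central elements of `Q`. -/
theorem setting_center {w : ℕ} (hS : IsExtraspecialCentralizerSetting z Q w) (q : Q) :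
    q ∈ Subgroup.center Q ↔ q = 1 ∨ q = ⟨zElt z, setting_zElt_mem hS⟩ := by
  have hz : (⟨zElt z, setting_zElt_mem hS⟩ : Q) ∈ Subgroup.center Q :=
    Subgroup.mem_center_iff.2 fun g => Subtype.ext (zElt_central _)
  constructor
  · intro hq
    by_cases h1 : q = 1
    · exact Or.inl h1
    · exact Or.inr (center_cases hS.2.2.1.2 hq hz h1
        (fun h => setting_zElt_ne_one hS (congrArg Subtype.val h)))
  · rintro (rfl | rfl)
    · exact one_mem _
    · exact hz

variable [Q.Normal]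
variable {e : (Subgroup.centralizer ({z} : Set G)) ⧸ Q ≃* Spor.Co1}
variable {ψ : leechLattice → Q ⧸ Subgroup.center Q}

theorem psi_zero (hψ : IsLeechModTwoIso Q e ψ) : ψ 0 = 1 :=
  (hψ.2.2.1 0).2 ⟨0, (add_zero 0).symm⟩

theorem psi_neg (hψ : IsLeechModTwoIso Q e ψ) (v : leechLattice) : ψ (-v) = ψ v := by
  have h := hψ.1 (-v) v
  rw [neg_add_cancel, psi_zero hψ] at h
  have h2 : ψ (v + v) = 1 := (hψ.2.2.1 (v + v)).2 ⟨v, rfl⟩
  rw [hψ.1] at h2
  exact mul_right_cancel (h.symm.trans h2.symm)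

theorem psi_eq_iff (hψ : IsLeechModTwoIso Q e ψ) (u v : leechLattice) : ψ u = ψ v ↔ Cg u v := by
  have h : ψ (u - v) = ψ u * ψ v := by rw [sub_eq_add_neg, hψ.1, psi_neg hψ]
  have h2 : ψ v * ψ v = 1 := by rw [← hψ.1]; exact (hψ.2.2.1 (v + v)).2 ⟨v, rfl⟩
  rw [Cg, ← hψ.2.2.1 (u - v), h]
  constructor
  · intro huv; rw [huv, h2]
  · intro huv
    exact mul_right_cancel (huv.trans h2.symm)

theorem psi_pairing (hψ : IsLeechModTwoIso Q e ψ) (a b : Q) :
    pairing a b ∈ Subgroup.center Q := by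
  obtain ⟨u, hu⟩ := hψ.2.1 (QuotientGroup.mk a)
  obtain ⟨v, hv⟩ := hψ.2.1 (QuotientGroup.mk b)
  rw [← QuotientGroup.eq_one_iff, pairing]
  simp only [QuotientGroup.mk_mul, QuotientGroup.mk_inv, ← hu, ← hv]
  have hcomm : ψ u * ψ v = ψ v * ψ u := by rw [← hψ.1, ← hψ.1, add_comm]
  rw [mul_assoc _ (ψ v), ← hcomm, ← mul_assoc, inv_mul_cancel, one_mul, mul_inv_cancel]

theorem psi_sq (hψ : IsLeechModTwoIso Q e ψ) (a : Q) : a ^ 2 ∈ Subgroup.center Q := by
  obtain ⟨u, hu⟩ := hψ.2.1 (QuotientGroup.mk a)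
  rw [← QuotientGroup.eq_one_iff, sq, QuotientGroup.mk_mul, ← hu, ← hψ.1]
  exact (hψ.2.2.1 (u + u)).2 ⟨u, rfl⟩

/-- Squaring in `Q` read on the lattice. -/
noncomputable def sqPar (ψ : leechLattice → Q ⧸ Subgroup.center Q) (v : leechLattice) : ZMod 2 :=
  bitOf ((ψ v).out ^ 2)

theorem sqPar_eq (hψ : IsLeechModTwoIso Q e ψ) (hZ : Nat.card (Subgroup.center Q) = 2)
    {v : leechLattice} {q : Q} (h : ψ v = QuotientGroup.mk q) : sqPar ψ v = bitOf (q ^ 2) := by
  obtain ⟨c, hc⟩ := QuotientGroup.mk_out_eq_mul (Subgroup.center Q) q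
  rw [sqPar, h, hc]
  have hcomm : Commute q (c : Q) := Subgroup.mem_center_iff.1 c.2 q
  rw [hcomm.mul_pow]
  have hc2 : ((c : Q)) ^ 2 = 1 := by
    have := pow_card_eq_one' (x := c)
    rw [hZ] at this
    exact congrArg Subtype.val this
  rw [hc2, mul_one]

/-- Squaring is the norm modulo 2. -/
theorem sqPar_eq_normPar (hS : IsExtraspecialCentralizerSetting z Q 12)
    (hψ : IsLeechModTwoIso Q e ψ) (v : leechLattice) : sqPar ψ v = normPar v := by
  have hZ := hS.2.2.1.2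
  have hC := psi_pairing hψ
  have hsq := psi_sq hψ
  have hcoset : ∀ u w : leechLattice, sqPar ψ (u + (w + w)) = sqPar ψ u := by
    intro u w
    rw [sqPar, sqPar, show ψ (u + (w + w)) = ψ u from (psi_eq_iff hψ _ _).2 ⟨w, by abel⟩]
  have hquad : ∀ u v w : leechLattice,
      sqPar ψ (u + v + w) + sqPar ψ u + sqPar ψ v + sqPar ψ w =
        sqPar ψ (u + v) + sqPar ψ (u + w) + sqPar ψ (v + w) := by
    intro u v w
    obtain ⟨a, ha⟩ := QuotientGroup.mk_surjective (ψ u)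
    obtain ⟨b, hb⟩ := QuotientGroup.mk_surjective (ψ v)
    obtain ⟨c, hc⟩ := QuotientGroup.mk_surjective (ψ w)
    rw [sqPar_eq hψ hZ ha.symm, sqPar_eq hψ hZ hb.symm, sqPar_eq hψ hZ hc.symm,
      sqPar_eq hψ hZ (v := u + v + w) (q := a * b * c) (by
        rw [hψ.1, hψ.1, ← ha, ← hb, ← hc]; rfl),
      sqPar_eq hψ hZ (v := u + v) (q := a * b) (by rw [hψ.1, ← ha, ← hb]; rfl),
      sqPar_eq hψ hZ (v := u + w) (q := a * c) (by rw [hψ.1, ← ha, ← hc]; rfl),
      sqPar_eq hψ hZ (v := v + w) (q := b * c) (by rw [hψ.1, ← hb, ← hc]; rfl)]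
    exact bitOf_sq_quad hC hZ hsq a b c
  have hinv : ∀ (g : Co0) (u : leechLattice), sqPar ψ (g • u) = sqPar ψ u := by
    intro g u
    obtain ⟨a, ha⟩ := QuotientGroup.mk_surjective (ψ u)
    obtain ⟨h, hh⟩ := QuotientGroup.mk_surjective (e.symm (QuotientGroup.mk g))
    have := hψ.2.2.2 h g (by rw [hh, MulEquiv.apply_symm_apply]) u a ha.symm
    rw [sqPar_eq hψ hZ this, sqPar_eq hψ hZ ha.symm]
    have h2 : (⟨h * a * h⁻¹, (inferInstance : Q.Normal).conj_mem _ a.2 h⟩ : Q) ^ 2 = 1 ↔ a ^ 2 = 1 := by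
      rw [← (Subgroup.subtype_injective Q).eq_iff, ← (Subgroup.subtype_injective Q).eq_iff (a := a ^ 2)]
      simp only [Subgroup.coe_subtype, SubgroupClass.coe_pow, OneMemClass.coe_one, conj_pow, conj_eq_one_iff]
    by_cases h3 : a ^ 2 = 1
    · rw [bitOf_eq_zero.2 h3, bitOf_eq_zero.2 (h2.2 h3)]
    · have h4 : ∀ x : ZMod 2, x ≠ 0 → x = 1 := by decide
      rw [h4 _ (fun h => h3 (bitOf_eq_zero.1 h)), h4 _ (fun h => h3 (h2.1 (bitOf_eq_zero.1 h)))]
  obtain ⟨μ, hμ⟩ := invariant_quadratic (sqPar ψ) hcoset hquad hinv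
  have hμ0 : μ ≠ 0 := by
    intro h0
    have h2 : ∀ a : Q, a ^ 2 = 1 := fun a => by
      obtain ⟨u, hu⟩ := hψ.2.1 (QuotientGroup.mk a)
      have h3 := sqPar_eq hψ hZ hu
      rw [hμ, h0, zero_mul] at h3
      exact bitOf_eq_zero.1 h3.symm
    have hab : ∀ a b : Q, a * b = b * a := fun a b => by
      have hinv : ∀ x : Q, x⁻¹ = x := fun x => inv_eq_of_mul_eq_one_left (by rw [← sq]; exact h2 x)
      calc a * b = (a * b)⁻¹ := (hinv _).symm
        _ = b * a := by rw [mul_inv_rev, hinv, hinv]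
    have htop : Subgroup.center Q = ⊤ :=
      eq_top_iff.2 fun a _ => Subgroup.mem_center_iff.2 fun b => hab b a
    have h3 := hS.2.2.2.1
    rw [htop, Subgroup.card_top] at hZ
    omega
  have h1 : ∀ x : ZMod 2, x ≠ 0 → x = 1 := by decide
  rw [hμ, h1 μ hμ0, one_mul]

/-- An element of `Q` squares to one exactly when its class is singular. -/
theorem sq_eq_one_iff (hS : IsExtraspecialCentralizerSetting z Q 12)
    (hψ : IsLeechModTwoIso Q e ψ) {v : leechLattice} {q : Q} (h : ψ v = QuotientGroup.mk q) :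
    q ^ 2 = 1 ↔ (32 : ℤ) ∣ sqNorm (v : GolayPt → ℤ) := by
  rw [← normPar_eq_zero_iff, ← sqPar_eq_normPar hS hψ, sqPar_eq hψ hS.2.2.1.2 h, bitOf_eq_zero]

end

end CfsgLib.Leech
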