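import Mathlib
import Cfsg.Agent.Leech.FrameGroup
import Cfsg.Agent.Leech.Monster.Setting
import Cfsg.Agent.FStar.SelfCentralizing
import Cfsg.Agent.SymplecticType.ConjugatePair

set_option autoImplicit false

/-! Classes, conjugation and commutation in the Monster-type setting. -/

namespace CfsgLib.Leech

open Cfsg

variable {G : Type*} [Group G] {z : G} {Q : Subgroup (Subgroup.centralizer ({z} : Set G))}
variable [Q.Normal]
variable {e : (Subgroup.centralizer ({z} : Set G)) ⧸ Q ≃* Spor.Co1}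
variable {ψ : leechLattice → Q ⧸ Subgroup.center Q}

/-- The setting together with an identification. -/
structure Ctx (z : G) (Q : Subgroup (Subgroup.centralizer ({z} : Set G))) [Q.Normal]
    (e : (Subgroup.centralizer ({z} : Set G)) ⧸ Q ≃* Spor.Co1)
    (ψ : leechLattice → Q ⧸ Subgroup.center Q) : Prop where
  setting : IsExtraspecialCentralizerSetting z Q 12
  iso : IsLeechModTwoIso Q e ψ

/-- `h` and `g` have the same image in `Co1`. -/
def Match (e : (Subgroup.centralizer ({z} : Set G)) ⧸ Q ≃* Spor.Co1)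
    (h : Subgroup.centralizer ({z} : Set G)) (g : Co0) : Prop :=
  (QuotientGroup.mk g : Spor.Co1) = e (QuotientGroup.mk h)

theorem exists_match_left (g : Co0) : ∃ h, Match e h g := by
  obtain ⟨h, hh⟩ := QuotientGroup.mk_surjective (e.symm (QuotientGroup.mk g))
  exact ⟨h, by rw [Match, hh, MulEquiv.apply_symm_apply]⟩

theorem exists_match_right (h : Subgroup.centralizer ({z} : Set G)) : ∃ g, Match e h g := by
  obtain ⟨g, hg⟩ := QuotientGroup.mk_surjective (e (QuotientGroup.mk h))
  exact ⟨g, hg⟩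

theorem Match.mul {h h' : Subgroup.centralizer ({z} : Set G)} {g g' : Co0}
    (a : Match e h g) (b : Match e h' g') : Match e (h * h') (g * g') := by
  simp only [Match, QuotientGroup.mk_mul, map_mul] at a b ⊢
  rw [a, b]

theorem Match.inv {h : Subgroup.centralizer ({z} : Set G)} {g : Co0}
    (a : Match e h g) : Match e h⁻¹ g⁻¹ := by
  simp only [Match, QuotientGroup.mk_inv, map_inv] at a ⊢
  rw [a]

theorem Match.unique {h h' : Subgroup.centralizer ({z} : Set G)} {g : Co0}
    (a : Match e h g) (b : Match e h' g) : h⁻¹ * h' ∈ Q :=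
  QuotientGroup.eq.1 (e.injective (a.symm.trans b))

theorem Match.mul_mem {h : Subgroup.centralizer ({z} : Set G)} {g : Co0} (a : Match e h g)
    {y : Subgroup.centralizer ({z} : Set G)} (hy : y ∈ Q) : Match e (y * h) g := by
  rw [Match] at a ⊢
  rw [QuotientGroup.mk_mul, (QuotientGroup.eq_one_iff y).2 hy, one_mul]
  exact a

variable (hc : Ctx z Q e ψ)
include hc

/-- The central involution inside `Q`. -/
def Ctx.zq : Q := ⟨zElt z, setting_zElt_mem hc.setting⟩

theorem Ctx.zq_ne_one : hc.zq ≠ 1 := fun h =>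
  setting_zElt_ne_one hc.setting (congrArg Subtype.val h)

theorem Ctx.mem_center {q : Q} : q ∈ Subgroup.center Q ↔ q = 1 ∨ q = hc.zq :=
  setting_center hc.setting q

theorem Ctx.exists_class (q : Q) : ∃ v, ψ v = QuotientGroup.mk q :=
  hc.iso.2.1 _

theorem Ctx.class_zero {v : leechLattice} {q : Q} (hv : ψ v = QuotientGroup.mk q) :
    Cg v 0 ↔ q = 1 ∨ q = hc.zq := by
  rw [← psi_eq_iff hc.iso, psi_zero hc.iso, hv, QuotientGroup.eq_one_iff, hc.mem_center]

theorem Ctx.same_class {v w : leechLattice} {a b : Q} (ha : ψ v = QuotientGroup.mk a)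
    (hb : ψ w = QuotientGroup.mk b) (h : Cg v w) : a = b ∨ a = b * hc.zq := by
  have h1 : ψ v = ψ w := (psi_eq_iff hc.iso v w).2 h
  rw [ha, hb] at h1
  rcases hc.mem_center.1 (QuotientGroup.eq.1 h1.symm) with e' | e'
  · left; exact (inv_mul_eq_one.1 e').symm
  · right; rw [← e', mul_inv_cancel_left]

/-- Conjugation on classes. -/
theorem Ctx.conj_class {h : Subgroup.centralizer ({z} : Set G)} {g : Co0} (hm : Match e h g)
    {v : leechLattice} {q : Q} (hv : ψ v = QuotientGroup.mk q) :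
    ψ (g • v) =
      QuotientGroup.mk ⟨h * q * h⁻¹, (inferInstance : Q.Normal).conj_mem _ q.2 h⟩ :=
  hc.iso.2.2.2 h g hm v q hv

theorem Ctx.pairing_iff {v w : leechLattice} {a b : Q} (ha : ψ v = QuotientGroup.mk a)
    (hb : ψ w = QuotientGroup.mk b) : a * b = b * a ↔ dotPar v w = 0 := by
  have hZ := hc.setting.2.2.1.2
  have hC := psi_pairing hc.iso
  have hsq := psi_sq hc.iso
  have hn : ∀ {v : leechLattice} {q : Q}, ψ v = QuotientGroup.mk q →
      bitOf (q ^ 2) = normPar v := fun {v q} h => by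
    rw [← sqPar_eq hc.iso hZ h, sqPar_eq_normPar hc.setting hc.iso]
  have hab : ψ (v + w) = QuotientGroup.mk (a * b) := by rw [hc.iso.1, ha, hb]; rfl
  have h1 := hn hab
  rw [sq_mul hC, bitOf_mul hZ (mul_mem (hsq a) (hC a b)) (hsq b), bitOf_mul hZ (hsq a) (hC a b),
    hn ha, hn hb, normPar_add] at h1
  have h2 : bitOf (pairing a b) = dotPar v w := by
    revert h1
    generalize normPar v = x
    generalize normPar w = y
    generalize bitOf (pairing a b) = p
    generalize dotPar v w = d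
    revert x y p d
    decide
  rw [← h2, bitOf_eq_zero, pairing]
  constructor
  · intro h
    rw [mul_assoc a⁻¹ b a, ← h]; group
  · intro h
    calc a * b = a * (a⁻¹ * b * a * b⁻¹) * b := by rw [h, mul_one]
      _ = b * a := by group

/-- A noncentral element is conjugated to its other lift inside `Q`. -/
theorem Ctx.exists_swap {q : Q} (hq : ¬ (q = 1 ∨ q = hc.zq)) :
    ∃ y : Q, y * q * y⁻¹ = q * hc.zq := by
  obtain ⟨y, hy⟩ : ∃ y : Q, y * q ≠ q * y := by
    by_contra hne
    push Not at hne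
    exact hq (hc.mem_center.1 (Subgroup.mem_center_iff.2 hne))
  refine ⟨y, ?_⟩
  obtain ⟨v, hv⟩ := hc.exists_class q
  obtain ⟨w, hw⟩ := hc.exists_class y
  have hconj : ψ v = QuotientGroup.mk (y * q * y⁻¹) := by
    have h1 : ψ (w + v + w) = QuotientGroup.mk (y * q * y⁻¹) := by
      have hwi : ψ w = (QuotientGroup.mk y⁻¹ : Q ⧸ Subgroup.center Q) := by
        have hy : ψ (-w) = (QuotientGroup.mk y⁻¹ : Q ⧸ Subgroup.center Q) := by
          have hz2 : ψ (-w) * ψ w = 1 := by rw [← hc.iso.1, neg_add_cancel, psi_zero hc.iso]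
          rw [QuotientGroup.mk_inv, ← hw]
          exact eq_inv_of_mul_eq_one_left hz2
        rw [← hy, psi_neg hc.iso]
      rw [hc.iso.1, hc.iso.1, hv]
      conv_lhs => arg 1; arg 1; rw [hw]
      rw [hwi]; rfl
    rw [← h1]
    exact (psi_eq_iff hc.iso _ _).2 ⟨-w, by abel⟩
  rcases hc.same_class hconj hv (Cg.refl v) with r | r
  · exact absurd (mul_inv_eq_iff_eq_mul.1 r) hy
  · exact r

/-- Equivalent nonzero classes give conjugate elements. -/
theorem Ctx.exists_conj {v w : leechLattice} {a b : Q} (ha : ψ v = QuotientGroup.mk a)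
    (hb : ψ w = QuotientGroup.mk b) {g : Co0} (hg : Cg (g • v) w) (hw : ¬ Cg w 0) :
    ∃ h, Match e h g ∧ h * (a : Subgroup.centralizer ({z} : Set G)) * h⁻¹ = b := by
  obtain ⟨h, hh⟩ := exists_match_left (e := e) g
  rcases hc.same_class (hc.conj_class hh ha) hb hg with r | r
  · exact ⟨h, hh, congrArg Subtype.val r⟩
  · obtain ⟨y, hy⟩ := hc.exists_swap (q := b) (fun hcen => hw ((hc.class_zero hb).2 hcen))
    have r' : (y : Subgroup.centralizer ({z} : Set G)) * (h * a * h⁻¹) * (y : Subgroup.centralizer ({z} : Set G))⁻¹ = b := by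
      have h1 : y * (b * hc.zq) * y⁻¹ = b := by
        have hz : hc.zq * y⁻¹ = y⁻¹ * hc.zq := (Subgroup.mem_center_iff.1
          (hc.mem_center.2 (Or.inr rfl)) y⁻¹).symm
        have hz2 : hc.zq * hc.zq = 1 := by
          rcases hc.mem_center.1 (mul_mem (hc.mem_center.2 (Or.inr rfl))
            (hc.mem_center.2 (Or.inr rfl)) : hc.zq * hc.zq ∈ Subgroup.center Q) with k | k
          · exact k
          · exact absurd (mul_eq_left.1 k) hc.zq_ne_one
        calc y * (b * hc.zq) * y⁻¹ = (y * b * y⁻¹) * (y * hc.zq * y⁻¹) := by group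
          _ = (b * hc.zq) * (y * (hc.zq * y⁻¹)) := by rw [hy, mul_assoc y hc.zq]
          _ = b * (hc.zq * hc.zq) := by rw [hz, mul_inv_cancel_left, mul_assoc]
          _ = b := by rw [hz2, mul_one]
      rw [← congrArg Subtype.val h1]
      have r1 := congrArg Subtype.val r
      simp only [Subgroup.coe_mul, InvMemClass.coe_inv] at r1 ⊢
      rw [r1]
    exact ⟨y * h, hh.mul_mem y.2, by rw [mul_inv_rev, ← r']; group⟩

/-- `Q` as a subgroup of `G`. -/
def Ctx.qG (_ : Ctx z Q e ψ) : Subgroup G := Q.map (Subgroup.centralizer ({z} : Set G)).subtype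

theorem Ctx.mem_qG {x : G} : x ∈ hc.qG ↔ ∃ q : Q, ((q : Subgroup.centralizer ({z} : Set G)) : G) = x :=
  ⟨fun ⟨c, hcQ, hx⟩ => ⟨⟨c, hcQ⟩, hx⟩, fun ⟨q, hq⟩ => ⟨q, q.2, hq⟩⟩

theorem Ctx.datum [Finite G] : SymplecticType.Datum hc.qG z := by
  have hmul : ∀ a b : Q, ((a * b : Q) : Subgroup.centralizer ({z} : Set G)).1 =
      ((a : Subgroup.centralizer ({z} : Set G)) : G) * ((b : Subgroup.centralizer ({z} : Set G)) : G) :=
    fun a b => rfl
  have hinj : ∀ a b : Q, ((a : Subgroup.centralizer ({z} : Set G)) : G) =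
      ((b : Subgroup.centralizer ({z} : Set G)) : G) → a = b :=
    fun a b h => Subtype.ext (Subtype.ext h)
  have hzz : z * z = 1 := by rw [← sq, ← hc.setting.1]; exact pow_orderOf_eq_one z
  refine ⟨hc.mem_qG.2 ⟨hc.zq, rfl⟩, hzz, ?_, ?_, ?_, ?_, ?_, ?_, ?_, ?_⟩
  · intro h
    have := hc.setting.1
    rw [h, orderOf_one] at this
    omega
  · intro x hx
    obtain ⟨q, rfl⟩ := hc.mem_qG.1 hx
    exact (Subgroup.mem_centralizer_iff.1 q.1.2 z rfl).symm
  · intro x hx y hy
    obtain ⟨a, rfl⟩ := hc.mem_qG.1 hx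
    obtain ⟨b, rfl⟩ := hc.mem_qG.1 hy
    have h1 : a * b * a⁻¹ * b⁻¹ = pairing a⁻¹ b := by simp [pairing]
    rcases hc.mem_center.1 (psi_pairing hc.iso a⁻¹ b) with r | r <;> rw [← h1] at r
    · exact Or.inl (congrArg (fun q : Q => ((q : Subgroup.centralizer ({z} : Set G)) : G)) r)
    · exact Or.inr (congrArg (fun q : Q => ((q : Subgroup.centralizer ({z} : Set G)) : G)) r)
  · intro x hx y hy
    obtain ⟨a, rfl⟩ := hc.mem_qG.1 hx
    obtain ⟨b, rfl⟩ := hc.mem_qG.1 hy
    have h1 : a * a * b = b * (a * a) := by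
      rw [← sq]; exact (Subgroup.mem_center_iff.1 (psi_sq hc.iso a) b).symm
    exact congrArg (fun q : Q => ((q : Subgroup.centralizer ({z} : Set G)) : G)) h1
  · intro x hx
    obtain ⟨a, rfl⟩ := hc.mem_qG.1 hx
    have h1 : a * a * (a * a) = 1 := by
      rcases hc.mem_center.1 (psi_sq hc.iso a) with r | r <;> rw [sq] at r <;> rw [r]
      · exact one_mul 1
      · exact Subtype.ext (Subtype.ext hzz)
    exact congrArg (fun q : Q => ((q : Subgroup.centralizer ({z} : Set G)) : G)) h1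
  · intro x hx hcomm _
    obtain ⟨a, rfl⟩ := hc.mem_qG.1 hx
    rcases hc.mem_center.1 (Subgroup.mem_center_iff.2 fun b => hinj (b * a) (a * b) (by
      rw [hmul, hmul]; exact (hcomm _ (hc.mem_qG.2 ⟨b, rfl⟩)).symm)) with r | r
    · exact Or.inl (congrArg (fun q : Q => ((q : Subgroup.centralizer ({z} : Set G)) : G)) r)
    · exact Or.inr (congrArg (fun q : Q => ((q : Subgroup.centralizer ({z} : Set G)) : G)) r)
  · intro h hh x hx
    obtain ⟨a, rfl⟩ := hc.mem_qG.1 hx
    have hmem : h ∈ Subgroup.centralizer ({z} : Set G) :=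
      Subgroup.mem_centralizer_iff.2 fun g hg => by rw [Set.mem_singleton_iff.1 hg, hh]
    exact hc.mem_qG.2 ⟨⟨⟨h, hmem⟩ * a.1 * ⟨h, hmem⟩⁻¹,
      (inferInstance : Q.Normal).conj_mem _ a.2 _⟩, rfl⟩
  · intro h hh hcomm
    have hmem : h ∈ Subgroup.centralizer ({z} : Set G) :=
      Subgroup.mem_centralizer_iff.2 fun g hg => by rw [Set.mem_singleton_iff.1 hg, hh]
    have h1 : (⟨h, hmem⟩ : Subgroup.centralizer ({z} : Set G)) ∈ Q := by
      have hle := CfsgLib.FStar.centralizer_generalizedFitting_le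
        (G := Subgroup.centralizer ({z} : Set G))
      rw [hc.setting.2.1] at hle
      exact hle (Subgroup.mem_centralizer_iff.2 fun q hq => Subtype.ext
        (hcomm _ (hc.mem_qG.2 ⟨⟨q, hq⟩, rfl⟩)).symm)
    exact hc.mem_qG.2 ⟨⟨_, h1⟩, rfl⟩

end CfsgLib.Leech
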