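import Mathlib
import Cfsg.Agent.Leech.StabTwo
import Cfsg.Agent.Leech.Monster.Basic
import Cfsg.Agent.Leech.Monster.AbelianBound

set_option autoImplicit false

/-! A conjugate of `z` in `Q` other than `z` has the class of a frame, and the two conjugates of
`Q` meet in a group of order `2^13`. -/

namespace CfsgLib.Leech

open Cfsg

/-- Sign changes as a homomorphism. -/
def signsHom : Multiplicative golayCode →* Co0 :=
  MonoidHom.mk' (fun c => signs c.toAdd.1 c.toAdd.2) (fun c d =>
    (signs_mul _ _ c.toAdd.2 d.toAdd.2).symm)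

theorem signsHom_injective : Function.Injective signsHom := fun c d h => by
  have h2 : monomial (c.toAdd, 1) = monomial (d.toAdd, 1) := by
    simp only [monomial, map_one, mul_one]; exact h
  exact congrArg Prod.fst (monomial_injective h2)

theorem card_signsHom_range : Nat.card signsHom.range = 4096 := by
  rw [← Nat.card_congr (MonoidHom.ofInjective signsHom_injective).toEquiv,
    Nat.card_congr Multiplicative.toAdd]
  exact card_code

variable {G : Type*} [Group G] {z : G} {Q : Subgroup (Subgroup.centralizer ({z} : Set G))}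
variable [Q.Normal]
variable {e : (Subgroup.centralizer ({z} : Set G)) ⧸ Q ≃* Spor.Co1}
variable {ψ : leechLattice → Q ⧸ Subgroup.center Q}

/-- A conjugate `g z g⁻¹` of `z` lying in `Q` and different from `z`. -/
structure ConjPair (z : G) (Q : Subgroup (Subgroup.centralizer ({z} : Set G))) (g : G) (sq : Q) :
    Prop where
  eq : ((sq : Subgroup.centralizer ({z} : Set G)) : G) = g * z * g⁻¹
  ne : g * z * g⁻¹ ≠ z

/-- The conjugate of `Q` inside the centraliser. -/
def interC (z : G) (Q : Subgroup (Subgroup.centralizer ({z} : Set G))) (g : G) :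
    Subgroup (Subgroup.centralizer ({z} : Set G)) :=
  ((Q.map (Subgroup.centralizer ({z} : Set G)).subtype).map (MulAut.conj g).toMonoidHom).subgroupOf
    (Subgroup.centralizer ({z} : Set G))

/-- The elements of `Co0` over the image of the conjugate of `Q`. -/
def liftE (e : (Subgroup.centralizer ({z} : Set G)) ⧸ Q ≃* Spor.Co1) (g : G) : Subgroup Co0 :=
  (((interC z Q g).map (QuotientGroup.mk' Q)).map e.toMonoidHom).comap
    (QuotientGroup.mk' (Subgroup.center Co0))

variable (hc : Ctx z Q e ψ) {g : G} {sq : Q} (hp : ConjPair z Q g sq)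
include hc hp

theorem Ctx.conj_mem_qG : g * z * g⁻¹ ∈ hc.qG := hc.mem_qG.2 ⟨sq, hp.eq⟩

theorem Ctx.sq_noncentral : ¬ (sq = 1 ∨ sq = hc.zq) := by
  rintro (h | h)
  · have := hp.eq
    rw [h] at this
    have hz : z = 1 := by
      have h1 : g * z * g⁻¹ = 1 := this.symm
      simpa using h1
    have h2 := hc.setting.1
    rw [hz, orderOf_one] at h2
    omega
  · exact hp.ne (by rw [← hp.eq, h]; rfl)

variable [Finite G]

theorem Ctx.z_mem_conj : z ∈ hc.qG.map (MulAut.conj g).toMonoidHom :=
  SymplecticType.mem_conj_of_mem hc.datum hp.ne (hc.conj_mem_qG hp)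

theorem Ctx.conj_datum :
    SymplecticType.Datum (hc.qG.map (MulAut.conj g).toMonoidHom) (g * z * g⁻¹) := hc.datum.map g

theorem Ctx.interC_commute {r : Subgroup.centralizer ({z} : Set G)} (hr : r ∈ interC z Q g) :
    r * (sq : Subgroup.centralizer ({z} : Set G)) = sq * r := by
  apply Subtype.ext
  show (r : G) * _ = _ * (r : G)
  rw [hp.eq]
  exact (hc.conj_datum hp).central _ hr

theorem Ctx.card_interC_ge : 2 ^ 24 ≤ Nat.card (interC z Q g) := by
  classical
  set R := hc.qG.map (MulAut.conj g).toMonoidHom with hR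
  have hcardR : Nat.card R = 2 ^ 25 := by
    rw [hR, Subgroup.card_map_of_injective (MulAut.conj g).injective,
      Ctx.qG, Subgroup.card_map_of_injective (Subgroup.subtype_injective _)]
    exact hc.setting.2.2.2.1
  let Rc : Subgroup R := (Subgroup.centralizer ({z} : Set G)).subgroupOf R
  have h2 : Rc.index ≤ 2 := by
    have E := hc.conj_datum hp
    have key : ∀ r r' : R, r ∉ Rc → r' ∉ Rc → r⁻¹ * r' ∈ Rc := by
      intro r r' hr hr'
      have hcz : ∀ x : R, x ∉ Rc →
          (x : G) * z * (x : G)⁻¹ * z⁻¹ = g * z * g⁻¹ := by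
        intro x hx
        refine (E.comm _ x.2 _ (hc.z_mem_conj hp)).resolve_left fun h => hx ?_
        exact Subgroup.mem_centralizer_iff.2 fun y hy => by
          rw [Set.mem_singleton_iff.1 hy]
          exact (SymplecticType.commute_of_comm_eq h).symm
      refine Subgroup.mem_centralizer_iff.2 fun y hy => ?_
      rw [Set.mem_singleton_iff.1 hy]
      show z * ((r : G)⁻¹ * r') = (r : G)⁻¹ * r' * z
      have h1 : (r : G) * z * (r : G)⁻¹ = (r' : G) * z * (r' : G)⁻¹ := by
        calc (r : G) * z * (r : G)⁻¹ = ((r : G) * z * (r : G)⁻¹ * z⁻¹) * z := by group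
          _ = ((r' : G) * z * (r' : G)⁻¹ * z⁻¹) * z := by rw [hcz r hr, hcz r' hr']
          _ = _ := by group
      calc z * ((r : G)⁻¹ * r') = (r : G)⁻¹ * ((r : G) * z * (r : G)⁻¹) * r' := by group
        _ = (r : G)⁻¹ * r' * z := by rw [h1]; group
    rw [Subgroup.index_eq_card]
    by_cases hall : ∀ r : R, r ∈ Rc
    · have h1 : Nat.card (R ⧸ Rc) = 1 := by
        refine Nat.card_eq_one_iff_unique.2 ⟨⟨fun a b => ?_⟩, ⟨QuotientGroup.mk 1⟩⟩
        induction a using QuotientGroup.induction_on with | H a => ?_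
        induction b using QuotientGroup.induction_on with | H b => ?_
        exact QuotientGroup.eq.2 (hall _)
      omega
    push Not at hall
    obtain ⟨r₀, hr₀⟩ := hall
    have hsur : Function.Surjective
        (fun b : Bool => if b then (QuotientGroup.mk (1 : R) : R ⧸ Rc) else QuotientGroup.mk r₀) := by
      intro a
      induction a using QuotientGroup.induction_on with | H a => ?_
      by_cases ha : a ∈ Rc
      · exact ⟨true, QuotientGroup.eq.2 (by simpa using ha)⟩
      · exact ⟨false, QuotientGroup.eq.2 (key r₀ a hr₀ ha)⟩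
    simpa using Nat.card_le_card_of_surjective _ hsur
  have h3 : Nat.card Rc = Nat.card (interC z Q g) := by
    refine Nat.card_congr ⟨fun r => ⟨⟨r.1.1, r.2⟩, r.1.2⟩, fun r => ⟨⟨r.1.1, r.2⟩, r.1.2⟩,
      fun r => rfl, fun r => rfl⟩
  have h4 := Subgroup.card_mul_index Rc
  rw [hcardR, h3] at h4
  have h5 := Nat.mul_le_mul_left (Nat.card (interC z Q g)) h2
  omega

theorem Ctx.meet_abelian : ∀ a ∈ (interC z Q g).subgroupOf Q, ∀ b ∈ (interC z Q g).subgroupOf Q,
    a * b = b * a := by
  intro a ha b hb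
  have hG : ∀ x y : Q, ((x : Subgroup.centralizer ({z} : Set G)) : G) *
      ((y : Subgroup.centralizer ({z} : Set G)) : G) = ((y : Subgroup.centralizer ({z} : Set G)) : G) *
      ((x : Subgroup.centralizer ({z} : Set G)) : G) → x * y = y * x :=
    fun x y h => Subtype.ext (Subtype.ext h)
  refine hG a b ?_
  rcases hc.datum.comm _ (hc.mem_qG.2 ⟨a, rfl⟩) _ (hc.mem_qG.2 ⟨b, rfl⟩) with h | h
  · exact SymplecticType.commute_of_comm_eq h
  rcases (hc.conj_datum hp).comm _ ha _ hb with h' | h'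
  · exact SymplecticType.commute_of_comm_eq h'
  · exact absurd (h'.symm.trans h) hp.ne

theorem Ctx.card_meet_le : Nat.card ((interC z Q g).subgroupOf Q) ≤ 2 ^ 13 := by
  have h := abelian_card_sq_le (psi_pairing hc.iso) hc.setting.2.2.1.2 _ (hc.meet_abelian hp)
  rw [hc.setting.2.2.2.1] at h
  by_contra hlt
  push Not at hlt
  norm_num at h hlt
  nlinarith

theorem Ctx.card_interC :
    Nat.card (interC z Q g) = Nat.card ((interC z Q g).map (QuotientGroup.mk' Q)) *
      Nat.card ((interC z Q g).subgroupOf Q) := by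
  let f := (QuotientGroup.mk' Q).comp (interC z Q g).subtype
  have h1 := Subgroup.card_mul_index f.ker
  rw [Subgroup.index_ker] at h1
  have h2 : f.range = (interC z Q g).map (QuotientGroup.mk' Q) := by
    rw [MonoidHom.range_comp, Subgroup.range_subtype]
  have h3 : Nat.card f.ker = Nat.card ((interC z Q g).subgroupOf Q) := by
    refine Nat.card_congr ⟨fun r => ⟨⟨r.1.1, (QuotientGroup.eq_one_iff _).1 r.2⟩, r.1.2⟩,
      fun r => ⟨⟨r.1.1, r.2⟩, (QuotientGroup.eq_one_iff _).2 r.1.2⟩, fun r => rfl, fun r => rfl⟩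
  rw [← h1, h2, h3, mul_comm]

theorem Ctx.mem_liftE {γ : Co0} : γ ∈ liftE e g ↔ ∃ r ∈ interC z Q g, Match e r γ := by
  constructor
  · rintro ⟨_, ⟨r, hr, rfl⟩, hrγ⟩
    exact ⟨r, hr, hrγ.symm⟩
  · rintro ⟨r, hr, hm⟩
    exact ⟨_, ⟨r, hr, rfl⟩, hm.symm⟩

theorem Ctx.liftE_isPGroup : IsPGroup 2 (liftE e g) := by
  haveI : Fact (Nat.Prime 2) := ⟨Nat.prime_two⟩
  refine IsPGroup.comap_of_ker_isPGroup (IsPGroup.map (IsPGroup.map ?_ _) _) _ ?_
  · intro r
    have hR : IsPGroup 2 (hc.qG.map (MulAut.conj g).toMonoidHom) := by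
      refine IsPGroup.of_card (n := 25) ?_
      rw [Subgroup.card_map_of_injective (MulAut.conj g).injective,
        Ctx.qG, Subgroup.card_map_of_injective (Subgroup.subtype_injective _)]
      exact hc.setting.2.2.2.1
    obtain ⟨k, hk⟩ := hR ⟨_, r.2⟩
    refine ⟨k, Subtype.ext (Subtype.ext ?_)⟩
    have h1 := congrArg Subtype.val hk
    simp only [SubgroupClass.coe_pow, OneMemClass.coe_one] at h1 ⊢
    exact h1
  · rw [QuotientGroup.ker_mk']
    exact IsPGroup.of_card (n := 1) (by rw [center_co0_card, pow_one])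

theorem Ctx.card_liftE :
    Nat.card (liftE e g) = 2 * Nat.card ((interC z Q g).map (QuotientGroup.mk' Q)) := by
  set S := ((interC z Q g).map (QuotientGroup.mk' Q)).map e.toMonoidHom with hS
  have h1 : (liftE e g).index = S.index :=
    Subgroup.index_comap_of_surjective _ (QuotientGroup.mk'_surjective _)
  have h2 := Subgroup.card_mul_index (liftE e g)
  have h3 := Subgroup.card_mul_index S
  have h4 := Subgroup.card_eq_card_quotient_mul_card_subgroup (Subgroup.center Co0)
  rw [center_co0_card] at h4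
  rw [show Nat.card ((interC z Q g).map (QuotientGroup.mk' Q)) = Nat.card S from
    (Subgroup.card_map_of_injective e.injective).symm]
  have hpos : 0 < S.index := Nat.pos_of_ne_zero fun h => by
    rw [h, mul_zero] at h3
    exact Nat.card_pos.ne h3
  rw [h1, h4, ← h3] at h2
  exact Nat.eq_of_mul_eq_mul_right hpos (by rw [h2]; ring)

theorem Ctx.liftE_fix {v : leechLattice} (hv : ψ v = QuotientGroup.mk sq) :
    ∀ γ ∈ liftE e g, Cg (γ • v) v := by
  intro γ hγ
  obtain ⟨r, hr, hm⟩ := (hc.mem_liftE hp).1 hγ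
  have h1 := hc.conj_class hm hv
  have h2 : (⟨r * sq * r⁻¹, (inferInstance : Q.Normal).conj_mem _ sq.2 r⟩ : Q) = sq :=
    Subtype.ext (by show r * _ * r⁻¹ = _; rw [hc.interC_commute hp hr, mul_inv_cancel_right])
  rw [h2] at h1
  exact (psi_eq_iff hc.iso _ _).1 (h1.trans hv.symm)

theorem Ctx.liftE_conj {v : leechLattice} (hv : ψ v = QuotientGroup.mk sq) {t : Co0}
    (ht : Cg (t • v) v) : ∀ γ ∈ liftE e g, t * γ * t⁻¹ ∈ liftE e g := by
  intro γ hγ
  obtain ⟨r, hr, hm⟩ := (hc.mem_liftE hp).1 hγ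
  obtain ⟨h, hh, hsq⟩ := hc.exists_conj hv hv ht
    (fun e0 => hc.sq_noncentral hp ((hc.class_zero hv).1 e0))
  refine (hc.mem_liftE hp).2 ⟨h * r * h⁻¹, ?_, (hh.mul hm).mul hh.inv⟩
  have hs : (h : G) * (g * z * g⁻¹) = (g * z * g⁻¹) * (h : G) := by
    rw [← hp.eq]
    exact congrArg Subtype.val (mul_inv_eq_iff_eq_mul.1 hsq)
  exact (hc.conj_datum hp).normalized _ hs _ hr

/-- The class of `g z g⁻¹` is that of a frame. -/
theorem Ctx.class_frame {v : leechLattice} (hv : ψ v = QuotientGroup.mk sq) :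
    Rel v (axisVec none) := by
  have hne : ¬ Cg v 0 := fun e0 => hc.sq_noncentral hp ((hc.class_zero hv).1 e0)
  have hsq2 : sq ^ 2 = 1 := by
    have hz : z * z = 1 := hc.datum.sq
    refine Subtype.ext (Subtype.ext ?_)
    show (((sq ^ 2 : Q) : Subgroup.centralizer ({z} : Set G)) : G) = 1
    rw [sq_def hp]
    calc g * z * g⁻¹ * (g * z * g⁻¹) = g * (z * z) * g⁻¹ := by group
      _ = 1 := by rw [hz]; group
  rcases singular_cases v ((sq_eq_one_iff hc.setting hc.iso hv).1 hsq2) with h | h | h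
  · exact absurd h hne
  swap
  · exact h
  exfalso
  obtain ⟨t, ht⟩ := h
  have hvU : Cg v (t⁻¹ • Spor.leechU) := by simpa using ht.smul t⁻¹
  have hn32 : sqNorm ((t⁻¹ • Spor.leechU : leechLattice) : GolayPt → ℤ) = 32 := by
    rw [co0_sqNorm, sqNorm_leechU]
  have htriv := twoClass_trivial hn32 (hc.liftE_isPGroup hp)
    (fun γ hγ => ((hvU.symm.smul γ).trans (hc.liftE_fix hp hv γ hγ)).trans hvU)
    (fun k hk p hpP => hc.liftE_conj hp hv (((hvU.smul k).trans hk).trans hvU.symm) p hpP)
  have hsub : ∀ r ∈ interC z Q g, r ∈ Q := by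
    intro r hr
    obtain ⟨γ, hγ⟩ := exists_match_right (e := e) r
    have hcen : γ ∈ Subgroup.center Co0 := by
      rcases htriv γ ((hc.mem_liftE hp).2 ⟨r, hr, hγ⟩) with rfl | rfl
      exacts [one_mem _, negOne_central]
    rw [← QuotientGroup.eq_one_iff]
    exact e.injective (by rw [map_one, ← hγ]; exact (QuotientGroup.eq_one_iff γ).2 hcen)
  have h1 : Nat.card (interC z Q g) = Nat.card ((interC z Q g).subgroupOf Q) :=
    Nat.card_congr (Subgroup.subgroupOfEquivOfLe hsub).toEquiv.symm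
  have := hc.card_interC_ge hp
  have := hc.card_meet_le hp
  omega
where
  sq_def {g : G} {sq : Q} (hp : ConjPair z Q g sq) :
      (((sq ^ 2 : Q) : Subgroup.centralizer ({z} : Set G)) : G) = g * z * g⁻¹ * (g * z * g⁻¹) := by
    rw [← hp.eq, sq_two]; rfl
  sq_two {sq : Q} : sq ^ 2 = sq * sq := pow_two sq

/-- The orders of the intersection and of its image. -/
theorem Ctx.meet_orders {v : leechLattice} (hv : ψ v = QuotientGroup.mk sq) {t : Co0}
    (ht : Cg (t • v) (axisVec none)) :
    Nat.card ((interC z Q g).subgroupOf Q) = 2 ^ 13 ∧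
      Nat.card ((interC z Q g).map (QuotientGroup.mk' Q)) = 2 ^ 11 ∧
      (liftE e g).map (MulAut.conj t).toMonoidHom = signsHom.range := by
  set P := (liftE e g).map (MulAut.conj t).toMonoidHom with hP
  have ht' : Cg (t⁻¹ • axisVec none) v := by simpa using (ht.smul t⁻¹).symm
  have hle : P ≤ frameStab := by
    rintro _ ⟨γ, hγ, rfl⟩
    show Cg ((t * γ * t⁻¹) • axisVec none) (axisVec none)
    rw [mul_smul, mul_smul]
    exact (((ht'.smul γ).trans (hc.liftE_fix hp hv γ hγ)).smul t).trans ht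
  have hn : ∀ k ∈ frameStab, ∀ p ∈ P, k * p * k⁻¹ ∈ P := by
    rintro k hk _ ⟨γ, hγ, rfl⟩
    refine ⟨(t⁻¹ * k * t) * γ * (t⁻¹ * k * t)⁻¹, hc.liftE_conj hp hv ?_ γ hγ, ?_⟩
    · rw [mul_smul, mul_smul]
      exact (((ht.smul k).trans hk).smul t⁻¹).trans ht'
    · show t * _ * t⁻¹ = k * (t * γ * t⁻¹) * k⁻¹
      group
  have hsub : P ≤ signsHom.range := by
    intro p hpP
    obtain ⟨c, hcc, rfl⟩ := frame_normal_two ((hc.liftE_isPGroup hp).map _) hle hn p hpP
    exact ⟨Multiplicative.ofAdd ⟨c, hcc⟩, rfl⟩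
  have hPc : Nat.card P = 2 * Nat.card ((interC z Q g).map (QuotientGroup.mk' Q)) := by
    rw [hP, Subgroup.card_map_of_injective (MulAut.conj t).injective, hc.card_liftE hp]
  have h1 := Nat.le_of_dvd Nat.card_pos (Subgroup.card_dvd_of_le hsub)
  rw [hPc, card_signsHom_range] at h1
  have h2 := hc.card_interC hp
  have h3 := hc.card_interC_ge hp
  have h4 := hc.card_meet_le hp
  set a := Nat.card ((interC z Q g).map (QuotientGroup.mk' Q))
  set b := Nat.card ((interC z Q g).subgroupOf Q)
  have ha : a ≤ 2 ^ 11 := by omega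
  have hb : b = 2 ^ 13 := by
    rcases Nat.lt_or_ge b (2 ^ 13) with hb | hb
    · nlinarith
    · omega
  have ha' : a = 2 ^ 11 := by
    rw [hb] at h2
    omega
  refine ⟨hb, ha', Subgroup.eq_of_le_of_card_ge hsub ?_⟩
  rw [card_signsHom_range, hPc]
  omega

end CfsgLib.Leech
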