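import Mathlib
import Cfsg.Agent.Leech.Monster.Conjugate

set_option autoImplicit false

/-! The two classes of involutions of `Q` outside its centre. -/

namespace CfsgLib.Leech

open Cfsg

variable {G : Type*} [Group G] [Finite G] {z : G}
variable {Q : Subgroup (Subgroup.centralizer ({z} : Set G))} [Q.Normal]
variable {e : (Subgroup.centralizer ({z} : Set G)) ⧸ Q ≃* Spor.Co1}
variable {ψ : leechLattice → Q ⧸ Subgroup.center Q}

theorem exists_conjPair_of_isConj {x : Q}
    (h : IsConj z ((x : Subgroup.centralizer ({z} : Set G)) : G))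
    (hne : ((x : Subgroup.centralizer ({z} : Set G)) : G) ≠ z) : ∃ g, ConjPair z Q g x := by
  obtain ⟨g, hg⟩ := isConj_iff.1 h
  exact ⟨g, hg.symm, by rw [hg]; exact hne⟩

variable (hc : Ctx z Q e ψ)
include hc

theorem Ctx.rel_conj {x y : Q} {v w : leechLattice} (hv : ψ v = QuotientGroup.mk x)
    (hw : ψ w = QuotientGroup.mk y) (h : Rel v w) (hy : ¬ (y = 1 ∨ y = hc.zq)) :
    ∃ k ∈ Subgroup.centralizer ({z} : Set G),
      k * ((x : Subgroup.centralizer ({z} : Set G)) : G) * k⁻¹ =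
        ((y : Subgroup.centralizer ({z} : Set G)) : G) := by
  obtain ⟨g, hg⟩ := h
  obtain ⟨k, -, hk⟩ := hc.exists_conj hv hw hg (fun e0 => hy ((hc.class_zero hw).1 e0))
  exact ⟨k, k.2, congrArg Subtype.val hk⟩

theorem Ctx.exists_conjPair : ∃ g sq, ConjPair z Q g sq := by
  obtain ⟨g, ⟨hq, hQ⟩, hne⟩ := hc.setting.2.2.2.2
  exact ⟨g, ⟨_, hQ⟩, rfl, hne⟩

/-- The conjugates of `z` in `Q` other than `z` are the elements over frame classes. -/
theorem Ctx.conj_iff_frame {x : Q} {v : leechLattice} (hv : ψ v = QuotientGroup.mk x) :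
    (IsConj z ((x : Subgroup.centralizer ({z} : Set G)) : G) ∧
      ((x : Subgroup.centralizer ({z} : Set G)) : G) ≠ z) ↔ Rel v (axisVec none) := by
  constructor
  · rintro ⟨h, hne⟩
    obtain ⟨g, hp⟩ := exists_conjPair_of_isConj h hne
    exact hc.class_frame hp hv
  · intro h
    obtain ⟨g, sq, hp⟩ := hc.exists_conjPair
    obtain ⟨w, hw⟩ := hc.exists_class sq
    have hx : ¬ (x = 1 ∨ x = hc.zq) := by
      intro hx
      obtain ⟨t, ht⟩ := h
      have h0 : Cg v 0 := (hc.class_zero hv).2 hx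
      have h1 : Cg (axisVec none) 0 := by simpa [co0_map_zero] using ht.symm.trans (h0.smul t)
      have := dotPar_cg h1 oddElt
      rw [dotPar_axis, dotPar_zero_left] at this
      revert this; decide +kernel
    obtain ⟨k, hk, hkx⟩ := hc.rel_conj hw hv ((hc.class_frame hp hw).trans h.symm) hx
    refine ⟨isConj_iff.2 ⟨k * g, by rw [← hkx, hp.eq]; group⟩, fun hxz => hx (Or.inr ?_)⟩
    exact Subtype.ext (Subtype.ext hxz)

theorem Ctx.frame_iff_norm (v : leechLattice) : Rel v (axisVec none) ↔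
    ∃ w : leechLattice, sqNorm (w : GolayPt → ℤ) = 64 ∧ Cg w v := by
  constructor
  · rintro ⟨t, ht⟩
    refine ⟨t⁻¹ • axisVec none, by rw [co0_sqNorm, sqNorm_axisVec], ?_⟩
    simpa using (ht.smul t⁻¹).symm
  · rintro ⟨w, hw, hcg⟩
    exact (Rel.of_cg hcg.symm).trans (rel_norm64 w hw)

theorem Ctx.transitive_conjugates {x y : Q}
    (hx : IsConj z ((x : Subgroup.centralizer ({z} : Set G)) : G))
    (hx1 : ((x : Subgroup.centralizer ({z} : Set G)) : G) ≠ z)
    (hy : IsConj z ((y : Subgroup.centralizer ({z} : Set G)) : G))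
    (hy1 : ((y : Subgroup.centralizer ({z} : Set G)) : G) ≠ z) :
    ∃ k ∈ Subgroup.centralizer ({z} : Set G),
      k * ((x : Subgroup.centralizer ({z} : Set G)) : G) * k⁻¹ =
        ((y : Subgroup.centralizer ({z} : Set G)) : G) := by
  obtain ⟨v, hv⟩ := hc.exists_class x
  obtain ⟨w, hw⟩ := hc.exists_class y
  obtain ⟨g, hp⟩ := exists_conjPair_of_isConj hy hy1
  exact hc.rel_conj hv hw
    (((hc.conj_iff_frame hv).1 ⟨hx, hx1⟩).trans ((hc.conj_iff_frame hw).1 ⟨hy, hy1⟩).symm)
    (hc.sq_noncentral hp)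

/-- An involution of `Q` not conjugate to `z` lies over the class of a vector of squared
length 32. -/
theorem Ctx.other_class {x : Q} (h2 : orderOf ((x : Subgroup.centralizer ({z} : Set G)) : G) = 2)
    (hx : ¬ IsConj z ((x : Subgroup.centralizer ({z} : Set G)) : G)) {v : leechLattice}
    (hv : ψ v = QuotientGroup.mk x) : Rel v Spor.leechU ∧ ¬ (x = 1 ∨ x = hc.zq) := by
  have hne : ¬ (x = 1 ∨ x = hc.zq) := by
    rintro (rfl | rfl)
    · simp at h2
    · exact hx (IsConj.refl z)
  have hsq : x ^ 2 = 1 := by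
    refine Subtype.ext (Subtype.ext ?_)
    simp only [SubgroupClass.coe_pow, OneMemClass.coe_one]
    rw [← h2, pow_orderOf_eq_one]
  refine ⟨?_, hne⟩
  rcases singular_cases v ((sq_eq_one_iff hc.setting hc.iso hv).1 hsq) with h | h | h
  · exact absurd ((hc.class_zero hv).1 h) hne
  · exact h
  · exact absurd ((hc.conj_iff_frame hv).2 h).1 hx

end CfsgLib.Leech
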