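import Mathlib
import Cfsg.Agent.Leech.StabTwoCert
import Cfsg.Agent.Leech.Monster.Orbits

set_option autoImplicit false

/-! Every involution of `Q` not conjugate to `z` lies in a conjugate of `Q` whose centre is in
`Q`. -/

namespace CfsgLib.Leech

open Cfsg

/-- The exact displacement of `2·twoWord` by a sign change: four times a pair. -/
theorem meet_witness : ∀ i,
    (if oddWord i = 0 then 2 * lift₂ (twoWord 2 3) i else -(2 * lift₂ (twoWord 2 3) i)) -
      2 * lift₂ (twoWord 2 3) i =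
    -(4 * lift₂ (fun p => oddWord p * twoWord 2 3 p) i) := by
  decide +kernel

theorem meet_witness_norm :
    ∑ i, (4 * lift₂ (fun p => oddWord p * twoWord 2 3 p) i) ^ 2 = 32 := by
  decide +kernel

theorem meet_witness_perp : (2 * lift₂ (twoWord 2 3) none) % 2 = 0 := by decide +kernel

variable {G : Type*} [Group G] [Finite G] {z : G}
variable {Q : Subgroup (Subgroup.centralizer ({z} : Set G))} [Q.Normal]
variable {e : (Subgroup.centralizer ({z} : Set G)) ⧸ Q ≃* Spor.Co1}
variable {ψ : leechLattice → Q ⧸ Subgroup.center Q}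
variable (hc : Ctx z Q e ψ)
include hc

/-- A class of squared length 32 met by the intersection of `Q` with its conjugate. -/
theorem Ctx.exists_two_in_meet {g : G} {sq : Q} (hp : ConjPair z Q g sq) :
    ∃ (w : Q) (u : leechLattice), (w : Subgroup.centralizer ({z} : Set G)) ∈ interC z Q g ∧
      ψ u = QuotientGroup.mk w ∧ Rel u Spor.leechU := by
  obtain ⟨v, hv⟩ := hc.exists_class sq
  obtain ⟨t, ht⟩ := hc.class_frame hp hv
  obtain ⟨-, -, hlift⟩ := hc.meet_orders hp hv ht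
  let u' : leechLattice := ⟨_, two_lift₂_mem (tWord_zero ▸ tWord_mem 0)⟩
  obtain ⟨γ, hγ, hγe⟩ : signs oddWord oddWord_mem ∈
      (liftE e g).map (MulAut.conj t).toMonoidHom := by
    rw [hlift]; exact ⟨Multiplicative.ofAdd ⟨oddWord, oddWord_mem⟩, rfl⟩
  obtain ⟨r, hr, hm⟩ := (hc.mem_liftE hp).1 hγ
  obtain ⟨q, hq⟩ := QuotientGroup.mk_surjective (ψ (t⁻¹ • u'))
  have hperp : dotPar v (t⁻¹ • u') = 0 := by
    rw [← dotPar_smul t, smul_inv_smul, dotPar_cg ht, dotPar_axis, intCast_two_eq_zero]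
    exact Int.dvd_of_emod_eq_zero meet_witness_perp
  have hcomm : (q : Subgroup.centralizer ({z} : Set G)) * sq = sq * q :=
    congrArg Subtype.val ((hc.pairing_iff hv hq.symm).2 hperp).symm
  have hw : r * q * r⁻¹ * (q : Subgroup.centralizer ({z} : Set G))⁻¹ ∈ Q :=
    mul_mem ((inferInstance : Q.Normal).conj_mem _ q.2 r) (inv_mem q.2)
  have hcl : ψ (γ • t⁻¹ • u' - t⁻¹ • u') = QuotientGroup.mk (⟨_, hw⟩ : Q) := by
    rw [sub_eq_add_neg, hc.iso.1, hc.conj_class hm hq.symm]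
    have h1 : ψ (-(t⁻¹ • u')) * ψ (t⁻¹ • u') = 1 := by
      rw [← hc.iso.1, neg_add_cancel, psi_zero hc.iso]
    rw [eq_inv_of_mul_eq_one_left h1, ← hq]
    rfl
  refine ⟨⟨_, hw⟩, _, ?_, hcl, ?_⟩
  · show r * q * r⁻¹ * (q : Subgroup.centralizer ({z} : Set G))⁻¹ ∈ interC z Q g
    rw [mul_assoc r, mul_assoc r]
    refine mul_mem hr ?_
    have hsG : (((q : Subgroup.centralizer ({z} : Set G))) : G) * (g * z * g⁻¹) =
        (g * z * g⁻¹) * ((q : Subgroup.centralizer ({z} : Set G)) : G) := by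
      rw [← hp.eq]; exact congrArg Subtype.val hcomm
    exact (hc.conj_datum hp).normalized _ hsG _ (inv_mem hr)
  · refine rel_norm32 _ ?_
    have hγ' : t * γ * t⁻¹ = signs oddWord oddWord_mem := hγe
    have h2 : γ • t⁻¹ • u' - t⁻¹ • u' = t⁻¹ • (signs oddWord oddWord_mem • u' - u') := by
      rw [co0_map_sub, ← hγ', mul_smul, mul_smul, inv_smul_smul]
    rw [h2, co0_sqNorm]
    show sqNorm (fun i => ((signs oddWord oddWord_mem • u' : leechLattice) : GolayPt → ℤ) i -
      (u' : GolayPt → ℤ) i) = 32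
    rw [sqNorm, ← meet_witness_norm]
    refine Finset.sum_congr rfl fun i _ => ?_
    rw [signs_apply]
    show ((if oddWord i = 0 then 2 * lift₂ (twoWord 2 3) i else -(2 * lift₂ (twoWord 2 3) i)) -
      2 * lift₂ (twoWord 2 3) i) ^ 2 = _
    rw [meet_witness i, neg_sq]

theorem Ctx.not_conj_of_two {w : Q} {u : leechLattice} (hu : ψ u = QuotientGroup.mk w)
    (h : Rel u Spor.leechU) : ¬ (w = 1 ∨ w = hc.zq) ∧
      ¬ IsConj z ((w : Subgroup.centralizer ({z} : Set G)) : G) := by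
  have hne : ¬ (w = 1 ∨ w = hc.zq) := fun hw => by
    have h0 : Cg u 0 := (hc.class_zero hu).2 hw
    obtain ⟨g, hg⟩ := h
    have h1 : Rel (0 : leechLattice) Spor.leechU :=
      Rel.of_cg ((by simpa [co0_map_zero] using h0.smul g : Cg (g • u) 0).symm.trans hg)
    have hz : sqNorm ((0 : leechLattice) : GolayPt → ℤ) = 0 := sqNorm_eq_zero.2 rfl
    have := rel_short h1 (by omega) (by rw [sqNorm_leechU]; omega)
    rw [sqNorm_leechU] at this
    omega
  refine ⟨hne, fun hconj => ?_⟩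
  by_cases hz : ((w : Subgroup.centralizer ({z} : Set G)) : G) = z
  · exact hne (Or.inr (Subtype.ext (Subtype.ext hz)))
  · have := (h.symm.trans ((hc.conj_iff_frame hu).1 ⟨hconj, hz⟩))
    have := rel_short this (by rw [sqNorm_leechU]; omega) (le_of_eq (sqNorm_axisVec none))
    rw [sqNorm_leechU, sqNorm_axisVec] at this
    omega

/-- A given involution of `Q` not conjugate to `z` lies in a conjugate of `Q`. -/
theorem Ctx.exists_conj_containing {x : Q}
    (h2 : orderOf ((x : Subgroup.centralizer ({z} : Set G)) : G) = 2)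
    (hx : ¬ IsConj z ((x : Subgroup.centralizer ({z} : Set G)) : G)) :
    ∃ g sq, ConjPair z Q g sq ∧ (x : Subgroup.centralizer ({z} : Set G)) ∈ interC z Q g := by
  obtain ⟨g, sq, hp⟩ := hc.exists_conjPair
  obtain ⟨w, u, hwI, hu, hrel⟩ := hc.exists_two_in_meet hp
  obtain ⟨v, hv⟩ := hc.exists_class x
  obtain ⟨hxv, hxne⟩ := hc.other_class h2 hx hv
  obtain ⟨t, ht⟩ := hrel.trans hxv.symm
  obtain ⟨k, -, hkw⟩ := hc.exists_conj hu hv ht (fun e0 => hxne ((hc.class_zero hv).1 e0))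
  refine ⟨(k : G) * g, ⟨k * sq * k⁻¹, (inferInstance : Q.Normal).conj_mem _ sq.2 k⟩, ⟨?_, ?_⟩, ?_⟩
  · show (k : G) * _ * (k : G)⁻¹ = _
    rw [hp.eq]; group
  · intro hz
    apply hp.ne
    calc g * z * g⁻¹ = (k : G)⁻¹ * ((k : G) * g * z * ((k : G) * g)⁻¹) * k := by group
      _ = (k : G)⁻¹ * (z * (k : G)) := by rw [hz]; group
      _ = z := by rw [Subgroup.mem_centralizer_iff.1 k.2 z rfl, inv_mul_cancel_left]
  · show ((x : Subgroup.centralizer ({z} : Set G)) : G) ∈
      (hc.qG).map (MulAut.conj ((k : G) * g)).toMonoidHom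
    obtain ⟨y, hy, hye⟩ := hwI
    rw [← hkw]
    refine ⟨y, hy, ?_⟩
    show (k : G) * g * y * ((k : G) * g)⁻¹ = (k : G) * ((w : Subgroup.centralizer ({z} : Set G)) : G) * (k : G)⁻¹
    rw [show ((w : Subgroup.centralizer ({z} : Set G)) : G) = g * y * g⁻¹ from hye.symm]
    group

end CfsgLib.Leech
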