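import Mathlib
import Cfsg.Agent.Leech.Co2
import Cfsg.Agent.Leech.Monster.TypeTwoMeet

set_option autoImplicit false

/-! The centraliser of an involution of `Q` over a class of squared length 32, mapped onto
`Co2`. -/

namespace CfsgLib.Leech

open Cfsg

variable {G : Type*} [Group G] {z : G}
variable {Q : Subgroup (Subgroup.centralizer ({z} : Set G))} [Q.Normal]
variable {e : (Subgroup.centralizer ({z} : Set G)) ⧸ Q ≃* Spor.Co1}
variable {ψ : leechLattice → Q ⧸ Subgroup.center Q}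

/-- The centraliser of `tq` inside `C`. -/
def stabQ (tq : Q) : Subgroup (Subgroup.centralizer ({z} : Set G)) :=
  Subgroup.centralizer ({(tq : Subgroup.centralizer ({z} : Set G))} : Set _)

theorem mem_stabQ {tq : Q} {k : Subgroup.centralizer ({z} : Set G)} :
    k ∈ stabQ tq ↔ k * tq = tq * k := by
  rw [stabQ, Subgroup.mem_centralizer_singleton_iff]

variable (hc : Ctx z Q e ψ) {tq : Q} {t₀ : Co0}
include hc

theorem Ctx.unique_lift {v : leechLattice} (hv : negOne • v ≠ v) {k : Subgroup.centralizer ({z} : Set G)}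
    {a b : Co0} (ha : Match e k a) (hb : Match e k b) (hav : a • v = v) (hbv : b • v = v) :
    a = b := by
  have h := QuotientGroup.eq.1 (ha.trans hb.symm)
  rcases center_co0_cases h with h | h
  · exact inv_mul_eq_one.1 h
  · exfalso
    apply hv
    rw [← h, mul_smul, hbv]
    exact inv_smul_eq_iff.2 hav.symm

theorem Ctx.exists_lift (hcls : ψ (t₀ • Spor.leechU) = QuotientGroup.mk tq)
    (k : stabQ tq) :
    ∃ δ : Spor.Co2, Match e k.1 (t₀ * co2Incl δ * t₀⁻¹) := by
  obtain ⟨γ, hγ⟩ := exists_match_right (e := e) k.1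
  have h1 := hc.conj_class hγ hcls
  rw [show (⟨k.1 * tq * k.1⁻¹, (inferInstance : Q.Normal).conj_mem _ tq.2 k.1⟩ : Q) = tq from
    Subtype.ext (by show k.1 * _ * k.1⁻¹ = _; rw [mem_stabQ.1 k.2, mul_inv_cancel_right])] at h1
  have hcg := (psi_eq_iff hc.iso _ _).1 (h1.trans hcls.symm)
  have key : ∀ γ' : Co0, Match e k.1 γ' → γ' • t₀ • Spor.leechU = t₀ • Spor.leechU →
      ∃ δ : Spor.Co2, Match e k.1 (t₀ * co2Incl δ * t₀⁻¹) := by
    intro γ' hm hfix
    obtain ⟨δ, hδ⟩ := co2_of_fix (g := t₀⁻¹ * γ' * t₀)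
      (by rw [mul_smul, mul_smul, hfix, inv_smul_smul])
    exact ⟨δ, by rw [hδ]; convert hm using 1; group⟩
  rcases cg_short hcg (by rw [co0_sqNorm, co0_sqNorm, sqNorm_leechU]; omega)
      (by rw [co0_sqNorm, sqNorm_leechU]; omega) with h | h | ⟨-, h⟩
  · exact key γ hγ h
  · refine key (negOne * γ) ?_ (by rw [mul_smul, h, negOne_smul, neg_neg])
    rw [Match, QuotientGroup.mk_mul, (QuotientGroup.eq_one_iff negOne).2 negOne_central, one_mul]
    exact hγ
  · rw [co0_sqNorm, sqNorm_leechU] at h; omega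

theorem Ctx.lift_unique {k : Subgroup.centralizer ({z} : Set G)} {a b : Spor.Co2}
    (ha : Match e k (t₀ * co2Incl a * t₀⁻¹)) (hb : Match e k (t₀ * co2Incl b * t₀⁻¹)) : a = b := by
  have hfix : ∀ δ : Spor.Co2, (t₀ * co2Incl δ * t₀⁻¹) • t₀ • Spor.leechU = t₀ • Spor.leechU :=
    fun δ => by rw [mul_smul, mul_smul, inv_smul_smul, co2Incl_fix]
  have h := hc.unique_lift (v := t₀ • Spor.leechU)
    (fun h => negOne_leechU (by
      have := congrArg (fun x => t₀⁻¹ • x) h
      rwa [negOne_smul, co0_map_neg, inv_smul_smul, ← negOne_smul] at this))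
    ha hb (hfix a) (hfix b)
  exact co2Incl_injective (mul_left_cancel (mul_right_cancel h))

/-- The map onto `Co2`. -/
noncomputable def Ctx.co2Hom (hcls : ψ (t₀ • Spor.leechU) = QuotientGroup.mk tq) :
    stabQ tq →* Spor.Co2 :=
  MonoidHom.mk' (fun k => (hc.exists_lift hcls k).choose) (fun a b => by
    refine hc.lift_unique (hc.exists_lift hcls (a * b)).choose_spec ?_
    have h := (hc.exists_lift hcls a).choose_spec.mul (hc.exists_lift hcls b).choose_spec
    rw [map_mul]
    convert h using 1 <;> first | rfl | group)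

theorem Ctx.co2Hom_match (hcls : ψ (t₀ • Spor.leechU) = QuotientGroup.mk tq) (k : stabQ tq) :
    Match e k.1 (t₀ * co2Incl (hc.co2Hom hcls k) * t₀⁻¹) :=
  (hc.exists_lift hcls k).choose_spec

theorem Ctx.co2Hom_eq_one (hcls : ψ (t₀ • Spor.leechU) = QuotientGroup.mk tq) (k : stabQ tq) :
    hc.co2Hom hcls k = 1 ↔ (k : Subgroup.centralizer ({z} : Set G)) ∈ Q := by
  have hm := hc.co2Hom_match hcls k
  constructor
  · intro h
    rw [h, map_one, mul_one, mul_inv_cancel, Match, QuotientGroup.mk_one, eq_comm,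
      map_eq_one_iff e e.injective, QuotientGroup.eq_one_iff] at hm
    exact hm
  · intro h
    refine hc.lift_unique hm ?_
    rw [map_one, mul_one, mul_inv_cancel, Match, (QuotientGroup.eq_one_iff k.1).2 h, map_one]
    rfl

theorem Ctx.co2Hom_surjective (hcls : ψ (t₀ • Spor.leechU) = QuotientGroup.mk tq) :
    Function.Surjective (hc.co2Hom hcls) := by
  intro δ
  have hne : ¬ Cg (t₀ • Spor.leechU) 0 := fun h => by
    have h0 : sqNorm ((0 : leechLattice) : GolayPt → ℤ) = 0 := sqNorm_eq_zero.2 rfl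
    have := rel_short (Rel.of_cg h) (by rw [co0_sqNorm, sqNorm_leechU]; omega) (by omega)
    rw [co0_sqNorm, sqNorm_leechU] at this
    omega
  obtain ⟨k, hk, hkt⟩ := hc.exists_conj hcls hcls (g := t₀ * co2Incl δ * t₀⁻¹)
    (by rw [mul_smul, mul_smul, inv_smul_smul, co2Incl_fix]; exact Cg.refl _) hne
  have hkm : k ∈ stabQ tq := mem_stabQ.2 (mul_inv_eq_iff_eq_mul.1 hkt)
  exact ⟨⟨k, hkm⟩, hc.lift_unique (hc.co2Hom_match hcls ⟨k, hkm⟩) hk⟩

end CfsgLib.Leech
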