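import Mathlib
import Cfsg.Agent.Leech.Monster.BabyLift
import Cfsg.Agent.S5429
import Cfsg.Agent.LargeExtraspecial.Simple
import Cfsg.Agent.LocalP.Basic
import Cfsg.Agent.CharP.Climb

set_option autoImplicit false

/-! The centraliser of an involution of `Q` not conjugate to `z` has Baby Monster type modulo the
involution. -/

namespace CfsgLib.Leech

open Cfsg

variable {G : Type*} [Group G] [Finite G] {z : G}
variable {Q : Subgroup (Subgroup.centralizer ({z} : Set G))} [Q.Normal]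
variable {e : (Subgroup.centralizer ({z} : Set G)) ⧸ Q ≃* Spor.Co1}
variable {ψ : leechLattice → Q ⧸ Subgroup.center Q}

/-- The data of an involution of `Q` over a class of squared length 32. -/
structure TwoData (hc : Ctx z Q e ψ) (t : G) (tq : Q) (t₀ : Co0) : Prop where
  coe : ((tq : Subgroup.centralizer ({z} : Set G)) : G) = t
  ord : orderOf t = 2
  notconj : ¬ IsConj z t
  cls : ψ (t₀ • Spor.leechU) = QuotientGroup.mk tq

variable {hc : Ctx z Q e ψ} {t : G} {tq : Q} {t₀ : Co0}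

theorem exists_twoData (hc : Ctx z Q e ψ) {x : Q}
    (h2 : orderOf ((x : Subgroup.centralizer ({z} : Set G)) : G) = 2)
    (hx : ¬ IsConj z ((x : Subgroup.centralizer ({z} : Set G)) : G)) :
    ∃ t₀, TwoData hc ((x : Subgroup.centralizer ({z} : Set G)) : G) x t₀ := by
  obtain ⟨v, hv⟩ := hc.exists_class x
  obtain ⟨⟨g, hg⟩, -⟩ := hc.other_class h2 hx hv
  exact ⟨g⁻¹, rfl, h2, hx, ((psi_eq_iff hc.iso _ _).2 (by simpa using (hg.smul g⁻¹).symm)).trans hv⟩

variable (hd : TwoData hc t tq t₀)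
include hd

theorem TwoData.noncentral : ¬ (tq = 1 ∨ tq = hc.zq) := by
  rintro (h | h)
  · have := hd.ord
    rw [← hd.coe, h] at this
    simp at this
  · exact hd.notconj (by rw [← hd.coe, h]; exact IsConj.refl z)

theorem TwoData.tz_comm : t * z = z * t := by
  rw [← hd.coe]
  exact hc.datum.central _ (hc.mem_qG.2 ⟨tq, rfl⟩)

theorem TwoData.tz_notConj : ¬ IsConj z (t * z) := by
  have hzq : ψ (t₀ • Spor.leechU) = QuotientGroup.mk (tq * hc.zq) := by
    rw [hd.cls]
    refine (QuotientGroup.eq).2 ?_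
    rw [inv_mul_cancel_left]
    exact hc.mem_center.2 (Or.inr rfl)
  have hrel : Rel (t₀ • Spor.leechU) Spor.leechU := (Rel.of_smul t₀ _).symm
  have h := (hc.not_conj_of_two hzq hrel).2
  rw [show ((((tq * hc.zq : Q)) : Subgroup.centralizer ({z} : Set G)) : G) = t * z by
    rw [← hd.coe]; rfl] at h
  exact h

theorem TwoData.mem_center_classes {a : Q} {w : leechLattice} (ha : ψ w = QuotientGroup.mk a) :
    (Cg w 0 ∨ Cg w (t₀ • Spor.leechU)) ↔
      (a = 1 ∨ a = hc.zq ∨ a = tq ∨ a = tq * hc.zq) := by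
  constructor
  · rintro (h | h)
    · rcases (hc.class_zero ha).1 h with r | r <;> simp [r]
    · rcases hc.same_class ha hd.cls h with r | r <;> simp [r]
  · intro h
    rcases h with r | r | r | r
    · exact Or.inl ((hc.class_zero ha).2 (Or.inl r))
    · exact Or.inl ((hc.class_zero ha).2 (Or.inr r))
    · refine Or.inr ((psi_eq_iff hc.iso _ _).1 ?_)
      rw [ha, hd.cls, r]
    · refine Or.inr ((psi_eq_iff hc.iso _ _).1 ?_)
      rw [ha, hd.cls, r]
      exact (QuotientGroup.eq).2 (by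
        rw [mul_inv_rev, inv_mul_cancel_right]
        exact inv_mem (hc.mem_center.2 (Or.inr rfl)))

theorem TwoData.closure_classes {y : G} (hy : y ∈ Subgroup.closure ({t, z} : Set G)) :
    ∃ (a : Q) (w : leechLattice), ((a : Subgroup.centralizer ({z} : Set G)) : G) = y ∧
      ψ w = QuotientGroup.mk a ∧ (Cg w 0 ∨ Cg w (t₀ • Spor.leechU)) := by
  let S : Subgroup Q := (Subgroup.zpowers (ψ (t₀ • Spor.leechU))).comap
    (QuotientGroup.mk' (Subgroup.center Q))
  let ι : Q →* G := (Subgroup.centralizer ({z} : Set G)).subtype.comp Q.subtype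
  have hle : Subgroup.closure ({t, z} : Set G) ≤ S.map ι := by
    rw [Subgroup.closure_le]
    rintro y (rfl | rfl)
    · exact ⟨tq, by show (QuotientGroup.mk tq : Q ⧸ Subgroup.center Q) ∈ Subgroup.zpowers _; rw [← hd.cls]; exact Subgroup.mem_zpowers _, hd.coe⟩
    · refine ⟨hc.zq, ?_, rfl⟩
      show (QuotientGroup.mk hc.zq : Q ⧸ Subgroup.center Q) ∈ Subgroup.zpowers _
      rw [(QuotientGroup.eq_one_iff hc.zq).2 (hc.mem_center.2 (Or.inr rfl))]
      exact one_mem _
  obtain ⟨a, ha, hay⟩ := hle hy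
  obtain ⟨w, hw⟩ := hc.exists_class a
  refine ⟨a, w, hay, hw, ?_⟩
  obtain ⟨n, hn⟩ := Subgroup.mem_zpowers_iff.1 ha
  have h2 : ψ (t₀ • Spor.leechU) * ψ (t₀ • Spor.leechU) = 1 := by
    rw [← hc.iso.1]; exact (hc.iso.2.2.1 _).2 ⟨_, rfl⟩
  rcases Int.even_or_odd' n with ⟨k, rfl | rfl⟩
  · left
    rw [zpow_mul, zpow_two, h2, one_zpow] at hn
    rw [← psi_eq_iff hc.iso, psi_zero hc.iso, hw]
    exact hn.symm
  · right
    rw [zpow_add, zpow_mul, zpow_two, h2, one_zpow, one_mul, zpow_one] at hn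
    rw [← psi_eq_iff hc.iso, hw]
    exact hn.symm

theorem TwoData.trivial_action {k : Subgroup.centralizer ({z} : Set G)}
    (h : ∀ x ∈ hc.qG ⊓ Subgroup.centralizer ({t} : Set G),
      ∃ y ∈ Subgroup.closure ({t, z} : Set G), (k : G) * x * (k : G)⁻¹ = x * y) : k ∈ Q := by
  obtain ⟨γ, hγ⟩ := exists_match_right (e := e) k
  have hn : sqNorm ((t₀ • Spor.leechU : leechLattice) : GolayPt → ℤ) = 32 := by
    rw [co0_sqNorm, sqNorm_leechU]
  have hact : ∀ u, dotPar (t₀ • Spor.leechU) u = 0 →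
      Cg (γ • u) u ∨ Cg (γ • u) (u + t₀ • Spor.leechU) := by
    intro u hu
    obtain ⟨a, ha⟩ := QuotientGroup.mk_surjective (ψ u)
    have hcomm := (hc.pairing_iff hd.cls ha.symm).2 hu
    have hat : ((a : Subgroup.centralizer ({z} : Set G)) : G) ∈
        hc.qG ⊓ Subgroup.centralizer ({t} : Set G) := by
      refine Subgroup.mem_inf.2 ⟨hc.mem_qG.2 ⟨a, rfl⟩, Subgroup.mem_centralizer_iff.2 fun y hy => ?_⟩
      rw [Set.mem_singleton_iff.1 hy, ← hd.coe]
      exact congrArg (fun q : Q => ((q : Subgroup.centralizer ({z} : Set G)) : G)) hcomm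
    obtain ⟨y, hy, hya⟩ := h _ hat
    obtain ⟨b, w, hby, hbw, hcl⟩ := hd.closure_classes hy
    have h1 : ψ (γ • u) = ψ (u + w) := by
      rw [hc.conj_class hγ ha.symm, hc.iso.1, ← ha, hbw]
      exact congrArg QuotientGroup.mk (Subtype.ext (Subtype.ext (by rw [← hby] at hya; exact hya)))
    have h2 := (psi_eq_iff hc.iso _ _).1 h1
    rcases hcl with r | r
    · left; simpa using h2.trans ((Cg.refl u).add r)
    · right; exact h2.trans ((Cg.refl u).add r)
  have hfix : Cg (γ • t₀ • Spor.leechU) (t₀ • Spor.leechU) := by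
    rcases hact _ (dotPar_self _) with r | r
    · exact r
    · exfalso
      have h0 : Cg (γ • t₀ • Spor.leechU) 0 := r.trans (cg_add_self _)
      have h1 : sqNorm ((0 : leechLattice) : GolayPt → ℤ) = 0 := sqNorm_eq_zero.2 rfl
      have := rel_short (Rel.of_cg h0) (by rw [co0_sqNorm, co0_sqNorm, sqNorm_leechU]; omega) (by omega)
      rw [co0_sqNorm, co0_sqNorm, sqNorm_leechU] at this
      omega
  have hcen : γ ∈ Subgroup.center Co0 := by
    rcases trivial_chain hn hfix hact with rfl | rfl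
    exacts [one_mem _, negOne_central]
  rw [← QuotientGroup.eq_one_iff]
  exact e.injective (by rw [map_one, ← hγ]; exact (QuotientGroup.eq_one_iff γ).2 hcen)

theorem TwoData.qG_action {c : G} (hc' : c ∈ hc.qG) {x : G} (hx : x ∈ hc.qG) :
    ∃ y ∈ Subgroup.closure ({t, z} : Set G), c * x * c⁻¹ = x * y := by
  refine ⟨x⁻¹ * (c * x * c⁻¹), ?_, by group⟩
  rcases hc.datum.comm _ (inv_mem hx) _ hc' with r | r
  · rw [show x⁻¹ * (c * x * c⁻¹) = x⁻¹ * c * (x⁻¹)⁻¹ * c⁻¹ by group, r]; exact one_mem _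
  · rw [show x⁻¹ * (c * x * c⁻¹) = x⁻¹ * c * (x⁻¹)⁻¹ * c⁻¹ by group, r]
    exact Subgroup.subset_closure (by simp)

variable [hn : ((Subgroup.zpowers t).subgroupOf (Subgroup.centralizer ({t} : Set G))).Normal]
include hn

omit hd hn in
theorem mem_zpowers_two {y x : G} (hy : orderOf y = 2) :
    x ∈ Subgroup.zpowers y ↔ x = 1 ∨ x = y := by
  have h2 : y * y = 1 := by rw [← sq, ← hy, pow_orderOf_eq_one]
  constructor
  · intro hx
    obtain ⟨n, rfl⟩ := Subgroup.mem_zpowers_iff.1 hx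
    rcases Int.even_or_odd' n with ⟨k, rfl | rfl⟩
    · left; rw [zpow_mul, zpow_two, h2, one_zpow]
    · right; rw [zpow_add, zpow_mul, zpow_two, h2, one_zpow, one_mul, zpow_one]
  · rintro (rfl | rfl)
    exacts [one_mem _, Subgroup.mem_zpowers _]

/-- The centraliser of `t` modulo `t` has Baby Monster type. -/
theorem TwoData.babyType : IsOfBabyMonsterType
    (↥(Subgroup.centralizer ({t} : Set G)) ⧸
      (Subgroup.zpowers t).subgroupOf (Subgroup.centralizer ({t} : Set G))) := by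
  classical
  set Ct := Subgroup.centralizer ({t} : Set G) with hCt
  set N := (Subgroup.zpowers t).subgroupOf Ct with hN
  have hzt : z ∈ Ct := Subgroup.mem_centralizer_iff.2 fun y hy => by
    rw [Set.mem_singleton_iff.1 hy, hd.tz_comm]
  set zb : Ct ⧸ N := QuotientGroup.mk ⟨z, hzt⟩ with hzb
  have hcoeK : ∀ k : stabQ tq, ((k : Subgroup.centralizer ({z} : Set G)) : G) ∈ Ct := fun k =>
    Subgroup.mem_centralizer_iff.2 fun y hy => by
      rw [Set.mem_singleton_iff.1 hy, ← hd.coe]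
      exact (congrArg Subtype.val (mem_stabQ.1 k.2)).symm
  let φ₀ : stabQ tq →* Ct ⧸ N := (QuotientGroup.mk' N).comp
    (MonoidHom.mk' (fun k => (⟨_, hcoeK k⟩ : Ct)) (fun a b => rfl))
  have hmemN : ∀ x : Ct, (QuotientGroup.mk x : Ct ⧸ N) = 1 ↔ (x : G) = 1 ∨ (x : G) = t := fun x => by
    rw [QuotientGroup.eq_one_iff, hN, Subgroup.mem_subgroupOf, mem_zpowers_two hd.ord]
  have hzbord : orderOf zb = 2 := by
    have hz2 : z ^ 2 = 1 := by rw [← hc.setting.1, pow_orderOf_eq_one]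
    refine orderOf_eq_prime ?_ fun h => ?_
    · rw [hzb, ← QuotientGroup.mk_pow, show (⟨z, hzt⟩ : Ct) ^ 2 = 1 from Subtype.ext hz2]; rfl
    · rcases (hmemN _).1 h with r | r
      · have := hc.setting.1
        rw [show z = 1 from r, orderOf_one] at this
        omega
      · exact hd.notconj (by rw [← show z = t from r])
  have hrange : φ₀.range = Subgroup.centralizer ({zb} : Set (Ct ⧸ N)) := by
    ext x
    constructor
    · rintro ⟨k, rfl⟩
      rw [Subgroup.mem_centralizer_singleton_iff, hzb]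
      show QuotientGroup.mk _ * QuotientGroup.mk _ = QuotientGroup.mk _ * QuotientGroup.mk _
      rw [← QuotientGroup.mk_mul, ← QuotientGroup.mk_mul]
      exact congrArg QuotientGroup.mk (Subtype.ext
        (Subgroup.mem_centralizer_iff.1 k.1.2 z rfl).symm)
    · intro hx
      obtain ⟨h, rfl⟩ := QuotientGroup.mk_surjective x
      have h1 : (QuotientGroup.mk (h * ⟨z, hzt⟩ * h⁻¹ * (⟨z, hzt⟩ : Ct)⁻¹) : Ct ⧸ N) = 1 := by
        have := Subgroup.mem_centralizer_singleton_iff.1 hx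
        simp only [QuotientGroup.mk_mul, QuotientGroup.mk_inv]
        rw [hzb] at this
        rw [this]; group
      have hz' : (h : G) * z = z * (h : G) := by
        rcases (hmemN _).1 h1 with r | r <;> simp only [Subgroup.coe_mul, InvMemClass.coe_inv] at r
        · calc (h : G) * z = ((h : G) * z * (h : G)⁻¹ * z⁻¹) * (z * (h : G)) := by group
            _ = _ := by rw [r, one_mul]
        · exfalso
          refine hd.tz_notConj (isConj_iff.2 ⟨(h : G), ?_⟩)
          calc (h : G) * z * (h : G)⁻¹ = ((h : G) * z * (h : G)⁻¹ * z⁻¹) * z := by group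
            _ = t * z := by rw [r]
      have hhC : (h : G) ∈ Subgroup.centralizer ({z} : Set G) :=
        Subgroup.mem_centralizer_singleton_iff.2 hz'
      have hk : (⟨(h : G), hhC⟩ : Subgroup.centralizer ({z} : Set G)) ∈ stabQ tq :=
        mem_stabQ.2 (Subtype.ext (by
          show (h : G) * _ = _ * (h : G)
          rw [hd.coe]
          exact Subgroup.mem_centralizer_singleton_iff.1 h.2))
      exact ⟨⟨_, hk⟩, rfl⟩
  set D := Subgroup.centralizer ({zb} : Set (Ct ⧸ N)) with hD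
  let φ : stabQ tq →* D := φ₀.codRestrict D fun k => hrange ▸ ⟨k, rfl⟩
  have hφs : Function.Surjective φ := fun d => by
    obtain ⟨k, hk⟩ := (hrange.symm ▸ d.2 : (d : Ct ⧸ N) ∈ φ₀.range)
    exact ⟨k, Subtype.ext hk⟩
  have hφker : ∀ k : stabQ tq, φ k = 1 ↔ ((k : Subgroup.centralizer ({z} : Set G)) : G) = 1 ∨
      ((k : Subgroup.centralizer ({z} : Set G)) : G) = t := fun k =>
    (Subtype.ext_iff (a1 := φ k)).trans (hmemN _)
  have hφQ : ∀ k : stabQ tq, φ k = 1 → (k : Subgroup.centralizer ({z} : Set G)) ∈ Q := by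
    intro k hk
    rcases (hφker k).1 hk with r | r
    · rw [show (k : Subgroup.centralizer ({z} : Set G)) = 1 from Subtype.ext r]; exact one_mem _
    · rw [show (k : Subgroup.centralizer ({z} : Set G)) = tq from Subtype.ext (r.trans hd.coe.symm)]
      exact tq.2
  let Φ := hc.co2Hom hd.cls
  let χ : D →* Spor.Co2 := φ.liftOfSurjective hφs ⟨Φ, fun k hk =>
    (hc.co2Hom_eq_one hd.cls k).2 (hφQ k hk)⟩
  have hχ : ∀ k, χ (φ k) = Φ k := fun k => MonoidHom.liftOfRightInverse_comp_apply _ _ _ _ k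
  have hχs : Function.Surjective χ := fun δ => by
    obtain ⟨k, hk⟩ := hc.co2Hom_surjective hd.cls δ
    exact ⟨φ k, (hχ k).trans hk⟩
  set R : Subgroup D := χ.ker with hR
  have hmemR : ∀ k : stabQ tq, φ k ∈ R ↔ (k : Subgroup.centralizer ({z} : Set G)) ∈ Q := fun k => by
    rw [hR, MonoidHom.mem_ker, hχ, hc.co2Hom_eq_one]
  -- a conjugate of `Q` through `t`
  obtain ⟨g, sq, hp, htI⟩ := hc.exists_conj_containing (x := tq) (by rw [hd.coe]; exact hd.ord)
    (by rw [hd.coe]; exact hd.notconj)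
  have hF : (generalizedFittingSubgroup ↥(Subgroup.centralizer ({z} : Set G))).map
      (Subgroup.centralizer ({z} : Set G)).subtype = hc.qG := by
    rw [hc.setting.2.1]; rfl
  have hQG : IsExtraspecial 2 hc.qG := LargeExtraspecial.isExtraspecial_of_mulEquiv
    (Q.equivMapOfInjective _ (Subgroup.subtype_injective _)) hc.setting.2.2.1
  have hcard : Nat.card hc.qG = 2 ^ (2 * 12 + 1) := by
    rw [Ctx.qG, Subgroup.card_map_of_injective (Subgroup.subtype_injective _)]
    exact hc.setting.2.2.2.1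
  have htI' : t ∈ hc.qG.map (MulAut.conj g).toMonoidHom := by rw [← hd.coe]; exact htI
  obtain ⟨hlarge, x, hxJ, hxz⟩ := Cfsg.Agent.S5429.result z hc.setting.1 hc.qG
    (fun y hy => by obtain ⟨q, rfl⟩ := hc.mem_qG.1 hy; exact q.1.2) hF hQG 12 (by norm_num) hcard g
    (hc.conj_mem_qG hp) (by
      rintro ⟨q, hq, hqe⟩
      refine hc.sq_noncentral hp (hc.mem_center.1 (Subgroup.mem_center_iff.2 fun b => ?_))
      apply Subtype.ext; apply Subtype.ext
      show _ * ((sq : Subgroup.centralizer ({z} : Set G)) : G) = _ * _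
      rw [hp.eq, ← hqe]
      exact congrArg Subtype.val (Subgroup.mem_center_iff.1 hq ⟨_, hc.mem_qG.2 ⟨b, rfl⟩⟩))
    t hd.ord (Subgroup.mem_inf.2 ⟨hc.mem_qG.2 ⟨tq, hd.coe⟩, htI'⟩) hd.notconj
    (hc.qG ⊓ Ct) rfl (fun c hcc => ⟨fun h =>
      hc.mem_qG.2 ⟨⟨⟨c, hcc⟩, hd.trivial_action (k := ⟨c, hcc⟩) h⟩, rfl⟩,
      fun h x hx => hd.qG_action h (Subgroup.mem_inf.1 hx).1⟩)
  set R' := ((hc.qG ⊓ Ct).subgroupOf Ct).map (QuotientGroup.mk' N) with hR'
  have hRmap : R.map D.subtype = R' := by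
    ext y
    constructor
    · rintro ⟨d, hd', rfl⟩
      obtain ⟨k, rfl⟩ := hφs d
      exact ⟨⟨_, hcoeK k⟩, Subgroup.mem_inf.2
        ⟨hc.mem_qG.2 ⟨⟨k.1, (hmemR k).1 hd'⟩, rfl⟩, hcoeK k⟩, rfl⟩
    · rintro ⟨h, hh, rfl⟩
      obtain ⟨q, hq⟩ := hc.mem_qG.1 (Subgroup.mem_inf.1 hh).1
      have hqk : (q : Subgroup.centralizer ({z} : Set G)) ∈ stabQ tq := mem_stabQ.2 (Subtype.ext (by
        show ((q : Subgroup.centralizer ({z} : Set G)) : G) * _ = _ * _
        rw [hd.coe, hq]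
        exact Subgroup.mem_centralizer_singleton_iff.1 h.2))
      refine ⟨φ ⟨q, hqk⟩, (hmemR _).2 q.2, ?_⟩
      show QuotientGroup.mk _ = QuotientGroup.mk h
      exact congrArg QuotientGroup.mk (Subtype.ext hq)
  have hRE : IsExtraspecial 2 R := LargeExtraspecial.isExtraspecial_of_mulEquiv
    ((R.equivMapOfInjective _ D.subtype_injective).trans (MulEquiv.subgroupCongr hRmap)).symm hlarge.1
  have hRcent : Subgroup.centralizer (R : Set D) ≤ R := by
    intro d hd'
    have h1 : (d : Ct ⧸ N) ∈ Subgroup.centralizer (R' : Set (Ct ⧸ N)) := by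
      refine Subgroup.mem_centralizer_iff.2 fun y hy => ?_
      rw [← hRmap] at hy
      obtain ⟨r, hr, rfl⟩ := hy
      exact congrArg Subtype.val (Subgroup.mem_centralizer_iff.1 hd' r hr)
    rw [hlarge.2.1] at h1
    obtain ⟨c, -, hcd⟩ := h1
    have h2 : (d : Ct ⧸ N) ∈ R.map D.subtype := by rw [hRmap, ← hcd]; exact c.2
    obtain ⟨r, hr, hrd⟩ := h2
    rwa [← show r = d from Subtype.ext hrd]
  have hRp : IsPGroup 2 R := hRE.1.1
  have hcore : pCore 2 D = R := by
    haveI : Fact (Nat.Prime 2) := ⟨Nat.prime_two⟩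
    refine le_antisymm (sSup_le fun M hM => ?_) (LocalP.le_pCore (MonoidHom.normal_ker χ) hRp)
    intro m hm
    rw [hR, MonoidHom.mem_ker]
    exact co2_normal_two (hM.2.map χ) (hM.1.map χ hχs) _ ⟨m, hm, rfl⟩
  have hFD : generalizedFittingSubgroup D = R := by
    haveI : Fact (Nat.Prime 2) := ⟨Nat.prime_two⟩
    rw [CharPClimb.generalizedFitting_eq_pCore (p := 2) (by rw [hcore]; exact hRcent), hcore]
  let zqK : stabQ tq := ⟨hc.zq.1, mem_stabQ.2 (Subtype.ext (by
    show z * _ = _ * z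
    rw [hd.coe]; exact hd.tz_comm.symm))⟩
  let zR : R := ⟨φ zqK, (hmemR zqK).2 hc.zq.2⟩
  have hzRcen : zR ∈ Subgroup.center R := Subgroup.mem_center_iff.2 fun r =>
    Subtype.ext (Subtype.ext (Subgroup.mem_centralizer_singleton_iff.1 (r : D).2))
  have hzR1 : zR ≠ 1 := fun h => by
    have h1 : zb = 1 := congrArg (fun x : R => ((x : D) : Ct ⧸ N)) h
    rw [h1, orderOf_one] at hzbord
    omega
  have hcenR : ∀ r : R, r ∈ Subgroup.center R ↔ r = 1 ∨ r = zR := fun r => by
    refine ⟨fun h => ?_, ?_⟩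
    · by_cases h1 : r = 1
      · exact Or.inl h1
      · exact Or.inr (center_cases hRE.2 h hzRcen h1 hzR1)
    · rintro (rfl | rfl)
      exacts [one_mem _, hzRcen]
  -- the order
  have hcardR : Nat.card R = 2 ^ (2 * 11 + 1) := by
    let K1 : Subgroup (stabQ tq) := Q.subgroupOf (stabQ tq)
    have hK1 : Nat.card K1 = Nat.card ((stabQ tq).subgroupOf Q) := Nat.card_congr
      ⟨fun k => ⟨⟨k.1.1, k.2⟩, k.1.2⟩, fun a => ⟨⟨a.1.1, a.2⟩, a.1.2⟩, fun _ => rfl, fun _ => rfl⟩
    let f : Q →* Subgroup.center Q := MonoidHom.mk' (fun a => ⟨pairing a tq, psi_pairing hc.iso _ _⟩)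
      (fun a b => Subtype.ext (pairing_mul_left (psi_pairing hc.iso) _ _ _))
    have hfk : f.ker = (stabQ tq).subgroupOf Q := by
      ext a
      rw [MonoidHom.mem_ker, Subgroup.mem_subgroupOf, mem_stabQ, Subtype.ext_iff]
      show pairing a tq = 1 ↔ _
      rw [pairing]
      constructor
      · intro h
        have : tq * a = a * tq := by
          calc tq * a = a * (a⁻¹ * tq * a * tq⁻¹) * tq := by group
            _ = a * tq := by rw [h, mul_one]
        exact (congrArg Subtype.val this).symm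
      · intro h
        have : a * tq = tq * a := Subtype.ext h
        rw [mul_assoc a⁻¹ tq a, ← this]; group
    have h2 := Subgroup.card_mul_index f.ker
    rw [Subgroup.index_ker, hfk, hc.setting.2.2.2.1] at h2
    have hfr : Nat.card f.range = 2 := by
      refine le_antisymm ?_ ?_
      · exact (Nat.le_of_dvd Nat.card_pos (Subgroup.card_subgroup_dvd_card _)).trans_eq hc.setting.2.2.1.2
      · rw [Nat.succ_le_iff, Finite.one_lt_card_iff_nontrivial]
        obtain ⟨y, hy⟩ := hc.exists_swap hd.noncentral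
        refine (Subgroup.nontrivial_iff_ne_bot _).2 fun hbot => ?_
        have hy1 : f y = 1 := by
          rw [← Subgroup.mem_bot, ← hbot]; exact ⟨y, rfl⟩
        have hcy : (y : Subgroup.centralizer ({z} : Set G)) ∈ stabQ tq := by
          have : y ∈ f.ker := hy1
          rw [hfk] at this; exact this
        have : y * tq = tq * y := Subtype.ext (mem_stabQ.1 hcy)
        rw [this, mul_inv_cancel_right] at hy
        exact hc.zq_ne_one (mul_eq_left.1 hy.symm)
    rw [hfr] at h2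
    let ρ : K1 →* D := φ.comp K1.subtype
    have hρr : ρ.range = R := by
      ext d
      constructor
      · rintro ⟨k, rfl⟩; exact (hmemR k.1).2 k.2
      · intro hd'
        obtain ⟨k, rfl⟩ := hφs d
        exact ⟨⟨k, (hmemR k).1 hd'⟩, rfl⟩
    have htK : (⟨tq.1, mem_stabQ.2 rfl⟩ : stabQ tq) ∈ K1 := tq.2
    have hρk : Nat.card ρ.ker = 2 := by
      refine Nat.card_eq_two_iff.2 ⟨1, ⟨⟨_, htK⟩, (hφker _).2 (Or.inr hd.coe)⟩, fun h => ?_, ?_⟩
      · exact hd.noncentral (Or.inl (Subtype.ext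
          (congrArg (fun x : ρ.ker => ((x : K1) : stabQ tq).1) h).symm))
      · refine Set.eq_univ_of_forall fun k => ?_
        rcases (hφker _).1 k.2 with r | r
        · exact Or.inl (Subtype.ext (Subtype.ext (Subtype.ext (Subtype.ext r))))
        · exact Or.inr (Subtype.ext (Subtype.ext (Subtype.ext (Subtype.ext (r.trans hd.coe.symm)))))
    have h3 := Subgroup.card_mul_index ρ.ker
    rw [Subgroup.index_ker, hρr, hρk, hK1] at h3
    omega
  -- the module map
  have hperp : ∀ x : leechPerpU, dotPar (t₀ • Spor.leechU) (t₀ • (x : leechLattice)) = 0 :=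
    fun x => by rw [dotPar_smul, dotPar_leechU_iff]; exact x.2
  choose qOf hqOf using fun x : leechPerpU =>
    QuotientGroup.mk_surjective (ψ (t₀ • (x : leechLattice)))
  replace hqOf : ∀ x : leechPerpU, ψ (t₀ • (x : leechLattice)) = QuotientGroup.mk (qOf x) :=
    fun x => (hqOf x).symm
  have hqK : ∀ x, (qOf x : Subgroup.centralizer ({z} : Set G)) ∈ stabQ tq := fun x =>
    mem_stabQ.2 (congrArg Subtype.val ((hc.pairing_iff hd.cls (hqOf x)).2 (hperp x)).symm)
  let rr : ∀ (a : Q), (a : Subgroup.centralizer ({z} : Set G)) ∈ stabQ tq → R := fun a ha =>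
    ⟨φ ⟨a.1, ha⟩, (hmemR _).2 a.2⟩
  let ψ' : leechPerpU → R ⧸ Subgroup.center R := fun x => QuotientGroup.mk (rr (qOf x) (hqK x))
  have hwd : ∀ (x : leechPerpU) (a : Q) (ha : (a : Subgroup.centralizer ({z} : Set G)) ∈ stabQ tq)
      (w : leechLattice), ψ w = QuotientGroup.mk a → Cg w (t₀ • (x : leechLattice)) →
      ψ' x = QuotientGroup.mk (rr a ha) := by
    intro x a ha w hw hcg
    rcases hc.same_class hw (hqOf x) hcg with r | r
    · subst r; rfl
    · refine (QuotientGroup.eq).2 ((hcenR _).2 (Or.inr ?_))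
      refine Subtype.ext ?_
      show (φ ⟨(qOf x).1, hqK x⟩)⁻¹ * φ ⟨a.1, ha⟩ = φ zqK
      rw [← map_inv, ← map_mul]
      congr 1
      refine Subtype.ext ?_
      show ((qOf x).1)⁻¹ * a.1 = hc.zq.1
      rw [r, Subgroup.coe_mul, inv_mul_cancel_left]
  refine ⟨zb, R, MonoidHom.normal_ker χ, ⟨hzbord, hFD, hRE, hcardR, ?_⟩,
    QuotientGroup.quotientKerEquivOfSurjective χ hχs, ψ', ?_, ?_, ?_, ?_⟩
  · -- not weakly closed
    have hxC : x ∈ Ct := by
      refine (sup_le inf_le_right inf_le_right :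
        hc.qG ⊓ Ct ⊔ hc.qG.map (MulAut.conj g).toMonoidHom ⊓ Ct ≤ Ct) hxJ
    have hx' : (x⁻¹ : G) * z * x = g * z * g⁻¹ := by
      calc (x⁻¹ : G) * z * x = x⁻¹ * (x * (g * z * g⁻¹) * x⁻¹) * x := by rw [hxz]
        _ = g * z * g⁻¹ := by group
    let h : Ct := ⟨x, hxC⟩
    have hhz : (QuotientGroup.mk h : Ct ⧸ N)⁻¹ * zb * (QuotientGroup.mk h : Ct ⧸ N) =
        QuotientGroup.mk (h⁻¹ * ⟨z, hzt⟩ * h) := by
      simp only [hzb, QuotientGroup.mk_mul, QuotientGroup.mk_inv]
    have hsq : (sq : Subgroup.centralizer ({z} : Set G)) ∈ stabQ tq := mem_stabQ.2 (Subtype.ext (by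
      show ((sq : Subgroup.centralizer ({z} : Set G)) : G) * _ = _ * _
      rw [hp.eq, hd.coe]
      exact ((hc.conj_datum hp).central t htI').symm))
    have hmem : φ₀ ⟨sq, hsq⟩ = (QuotientGroup.mk h : Ct ⧸ N)⁻¹ * zb * (QuotientGroup.mk h : Ct ⧸ N) := by
      rw [hhz]
      show QuotientGroup.mk _ = QuotientGroup.mk _
      exact congrArg QuotientGroup.mk (Subtype.ext (hp.eq.trans hx'.symm))
    refine ⟨(QuotientGroup.mk h : Ct ⧸ N)⁻¹, ?_⟩
    simp only [inv_inv]
    have hmemD : φ₀ ⟨sq, hsq⟩ ∈ D := (φ ⟨sq, hsq⟩).2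
    refine ⟨⟨hmem ▸ hmemD, ?_⟩, fun hz => ?_⟩
    · have : φ ⟨sq, hsq⟩ ∈ R := (hmemR _).2 sq.2
      convert this using 1
      exact Subtype.ext hmem.symm
    · rw [← hmem, hzb] at hz
      rcases (hmemN _).1 (show (QuotientGroup.mk ((⟨_, hcoeK ⟨sq, hsq⟩⟩ : Ct)⁻¹ * ⟨z, hzt⟩) : Ct ⧸ N) = 1
        from (QuotientGroup.eq_one_iff _).2 (QuotientGroup.eq.1 hz)) with r | r <;>
        simp only [Subgroup.coe_mul, InvMemClass.coe_inv] at r
      · exact hp.ne (by rw [← hp.eq]; exact inv_mul_eq_one.1 r)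
      · refine hd.tz_notConj (isConj_iff.2 ⟨g, ?_⟩)
        have hz2 : z⁻¹ = z := inv_eq_of_mul_eq_one_right hc.datum.sq
        have ht2 : t⁻¹ = t := inv_eq_of_mul_eq_one_right (by rw [← sq_mul' t, ← hd.ord, pow_orderOf_eq_one])
        rw [← hp.eq]
        have r' := congrArg (fun a => a⁻¹) r
        simp only [mul_inv_rev, inv_inv, ht2, hz2] at r'
        calc ((sq : Subgroup.centralizer ({z} : Set G)) : G) = z * (z * _) := by
              rw [← mul_assoc, hc.datum.sq, one_mul]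
          _ = t * z := by rw [r', hd.tz_comm]
  · intro x y
    have hm : ((qOf x * qOf y : Q) : Subgroup.centralizer ({z} : Set G)) ∈ stabQ tq :=
      mul_mem (hqK x) (hqK y)
    rw [hwd (x + y) _ hm (t₀ • (x : leechLattice) + t₀ • (y : leechLattice))
      (by rw [hc.iso.1, hqOf, hqOf]; rfl) (by rw [AddSubgroup.coe_add, co0_map_add]; exact Cg.refl _)]
    show _ = QuotientGroup.mk _ * QuotientGroup.mk _
    rw [← QuotientGroup.mk_mul]
    exact congrArg QuotientGroup.mk (Subtype.ext (map_mul φ ⟨(qOf x).1, hqK x⟩ ⟨(qOf y).1, hqK y⟩))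
  · intro q
    obtain ⟨⟨d, hd'⟩, rfl⟩ := QuotientGroup.mk_surjective q
    obtain ⟨k, rfl⟩ := hφs d
    let a : Q := ⟨k.1, (hmemR k).1 hd'⟩
    obtain ⟨w, hw⟩ := hc.exists_class a
    have hpw : dotPar (t₀ • Spor.leechU) w = 0 :=
      (hc.pairing_iff hd.cls hw).1 (Subtype.ext (mem_stabQ.1 k.2).symm)
    have hxm : t₀⁻¹ • w ∈ leechPerpU := by
      show (16 : ℤ) ∣ _
      rw [← dotPar_leechU_iff, ← dotPar_smul t₀, smul_inv_smul]
      exact hpw
    refine ⟨⟨_, hxm⟩, ?_⟩
    rw [hwd ⟨_, hxm⟩ a k.2 w hw (by show Cg w (t₀ • t₀⁻¹ • w); rw [smul_inv_smul]; exact Cg.refl _)]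
  · intro x
    have hz' : (QuotientGroup.mk (rr (qOf x) (hqK x)) : R ⧸ Subgroup.center R) = 1 ↔
        (qOf x = 1 ∨ qOf x = hc.zq ∨ qOf x = tq ∨ qOf x = tq * hc.zq) := by
      rw [QuotientGroup.eq_one_iff, hcenR]
      have hcase : ∀ b : stabQ tq, φ ⟨(qOf x).1, hqK x⟩ = φ b ↔
          ((qOf x : Subgroup.centralizer ({z} : Set G)) = b.1 ∨
            (qOf x : Subgroup.centralizer ({z} : Set G)) = (tq : Subgroup.centralizer ({z} : Set G)) * b.1) := by
        intro b
        rw [← mul_inv_eq_one, ← map_inv, ← map_mul, hφker]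
        refine or_congr ?_ ?_
        · show (((qOf x).1 * b.1⁻¹ : Subgroup.centralizer ({z} : Set G)) : G) = 1 ↔ _
          rw [OneMemClass.coe_eq_one, mul_inv_eq_one]
        · show (((qOf x).1 * b.1⁻¹ : Subgroup.centralizer ({z} : Set G)) : G) = t ↔ _
          rw [← hd.coe, Subtype.coe_inj, mul_inv_eq_iff_eq_mul]
      rw [Subtype.ext_iff, Subtype.ext_iff (a2 := zR)]
      show φ ⟨(qOf x).1, hqK x⟩ = 1 ∨ φ ⟨(qOf x).1, hqK x⟩ = φ zqK ↔ _
      rw [← map_one φ, hcase, hcase]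
      simp only [OneMemClass.coe_one, mul_one, Subtype.ext_iff, Subgroup.coe_mul]
      have hzK : (zqK : Subgroup.centralizer ({z} : Set G)) = hc.zq := rfl
      rw [hzK]
      constructor
      · rintro ((a | a) | (a | a))
        exacts [Or.inl a, Or.inr (Or.inr (Or.inl a)), Or.inr (Or.inl a), Or.inr (Or.inr (Or.inr a))]
      · rintro (a | a | a | a)
        exacts [Or.inl (Or.inl a), Or.inr (Or.inl a), Or.inl (Or.inr a), Or.inr (Or.inr a)]
    show QuotientGroup.mk _ = (1 : R ⧸ Subgroup.center R) ↔ _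
    rw [hz', ← hd.mem_center_classes (hqOf x)]
    refine or_congr ?_ ?_
    · constructor
      · intro h
        obtain ⟨w, hw⟩ : Cg (x : leechLattice) 0 := by simpa [co0_map_zero] using h.smul t₀⁻¹
        exact ⟨w, by rw [← hw, sub_zero]⟩
      · rintro ⟨w, hw⟩
        rw [hw, co0_map_add]; exact cg_add_self _
    · constructor
      · intro h
        obtain ⟨w, hw⟩ : Cg (x : leechLattice) Spor.leechU := by simpa using h.smul t₀⁻¹
        exact ⟨w, by rw [← hw]; abel⟩
      · rintro ⟨w, hw⟩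
        exact Cg.smul ⟨w, by rw [hw]; abel⟩ t₀
  · intro d δ hδ x y hxy r hr
    obtain ⟨k, rfl⟩ := hφs d
    have hδ' : Φ k = δ := by rw [← hχ k]; exact hδ
    have hm := hc.co2Hom_match hd.cls k
    rw [show hc.co2Hom hd.cls k = δ from hδ'] at hm
    have hxy' : (t₀ * co2Incl δ * t₀⁻¹) • t₀ • (x : leechLattice) = t₀ • (y : leechLattice) := by
      rw [mul_smul, mul_smul, inv_smul_smul]
      exact congrArg (t₀ • ·) hxy
    have hcl := hc.conj_class hm (hqOf x)
    rw [hxy'] at hcl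
    have hmem : k.1 * (qOf x).1 * k.1⁻¹ ∈ stabQ tq :=
      mul_mem (mul_mem k.2 (hqK x)) (inv_mem k.2)
    rw [hwd y ⟨_, (inferInstance : Q.Normal).conj_mem _ (qOf x).2 k.1⟩ hmem _ hcl (Cg.refl _)]
    obtain ⟨c, hc', hrc⟩ : ∃ c ∈ Subgroup.center R, rr (qOf x) (hqK x) = r * c :=
      ⟨r⁻¹ * rr (qOf x) (hqK x), QuotientGroup.eq.1 hr.symm, by group⟩
    refine (QuotientGroup.eq).2 ?_
    have hfix : φ k * (c : D) * (φ k)⁻¹ = c := by
      rcases (hcenR c).1 hc' with rfl | rfl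
      · show φ k * 1 * (φ k)⁻¹ = 1; group
      · have : φ k * φ zqK = φ zqK * φ k := Subtype.ext
          (Subgroup.mem_centralizer_singleton_iff.1 (φ k).2)
        show φ k * φ zqK * (φ k)⁻¹ = φ zqK
        rw [this, mul_inv_cancel_right]
    have hrw : (rr ⟨_, (inferInstance : Q.Normal).conj_mem _ (qOf x).2 k.1⟩ hmem : D) =
        φ k * ((rr (qOf x) (hqK x) : R) : D) * (φ k)⁻¹ := by
      show φ _ = φ k * φ _ * (φ k)⁻¹
      rw [← map_inv, ← map_mul, ← map_mul]; rfl
    convert inv_mem hc' using 1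
    refine Subtype.ext ?_
    rw [Subgroup.coe_mul, InvMemClass.coe_inv, InvMemClass.coe_inv, hrw, hrc, Subgroup.coe_mul]
    show (φ k * ((r : D) * c) * (φ k)⁻¹)⁻¹ * (φ k * r * (φ k)⁻¹) = ((c : D))⁻¹
    conv_rhs => rw [← hfix]
    group
where
  sq_mul' (a : G) : a ^ 2 = a * a := pow_two a

end CfsgLib.Leech
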