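import Mathlib
import Cfsg.Agent.Leech.FourPart
import Cfsg.Agent.Leech.Monster.Setting

set_option autoImplicit false

/-! An elementary abelian subgroup of order `2^13` in `Q`. -/

namespace CfsgLib.Leech

open Cfsg

theorem plusType {G : Type*} [Group G] [Finite G] {z : G} {Q : Subgroup (Subgroup.centralizer ({z} : Set G))}
    [Q.Normal] {e : (Subgroup.centralizer ({z} : Set G)) ⧸ Q ≃* Cfsg.Spor.Co1}
    {ψ : Cfsg.leechLattice → Q ⧸ Subgroup.center Q}
    (hS : Cfsg.IsExtraspecialCentralizerSetting z Q 12) (hψ : Cfsg.IsLeechModTwoIso Q e ψ) :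
    ∃ E : Subgroup Q, Cfsg.IsElementaryAbelian 2 E ∧ Nat.card E = 2 ^ 13 := by
  let f : Multiplicative evenSum →* Q ⧸ Subgroup.center Q :=
    MonoidHom.mk' (fun y => ψ (fourPart y.toAdd)) (fun a b => by
      rw [toAdd_mul, map_add, hψ.1])
  have hker : ∀ y, y ∈ f.ker ↔ (y.toAdd : GolayPt → ℤ) ∈ halfLattice := fun y => by
    rw [MonoidHom.mem_ker, ← fourPart_twice_iff]
    exact hψ.2.2.1 _
  have hcard : Nat.card f.range = 2 ^ 12 := by
    rw [← Subgroup.index_ker, ← halfLattice_relIndex_evenSum, AddSubgroup.relIndex]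
    have : f.ker = AddSubgroup.toSubgroup (halfLattice.addSubgroupOf evenSum) := by
      ext y; rw [hker]; rfl
    rw [this]; rfl
  refine ⟨f.range.comap (QuotientGroup.mk' (Subgroup.center Q)), ?_, ?_⟩
  · have h2 : ∀ a ∈ f.range.comap (QuotientGroup.mk' (Subgroup.center Q)), a ^ 2 = 1 := by
      intro a ha
      obtain ⟨y, hy⟩ := Subgroup.mem_comap.1 ha
      exact (sq_eq_one_iff hS hψ (v := fourPart y.toAdd) hy).2 (fourPart_singular _)
    refine ⟨⟨⟨fun a b => ?_⟩⟩, h2⟩
    apply Subtype.ext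
    have hinv : ∀ x ∈ f.range.comap (QuotientGroup.mk' (Subgroup.center Q)), x⁻¹ = x :=
      fun x hx => inv_eq_of_mul_eq_one_left (by rw [← sq]; exact h2 x hx)
    show (a : Q) * b = b * a
    calc (a : Q) * b = ((a : Q) * b)⁻¹ := (hinv _ (mul_mem a.2 b.2)).symm
      _ = b * a := by rw [mul_inv_rev, hinv _ a.2, hinv _ b.2]
  · have h1 : (f.range.comap (QuotientGroup.mk' (Subgroup.center Q))).index = f.range.index :=
      Subgroup.index_comap_of_surjective _ (QuotientGroup.mk'_surjective _)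
    have h2 := Subgroup.card_mul_index (f.range.comap (QuotientGroup.mk' (Subgroup.center Q)))
    have h3 := Subgroup.card_mul_index f.range
    have h4 := Subgroup.card_eq_card_quotient_mul_card_subgroup (Subgroup.center Q)
    rw [h1, hS.2.2.2.1] at h2
    rw [hcard] at h3
    rw [hS.2.2.1.2, hS.2.2.2.1] at h4
    have h5 : f.range.index = 2 ^ 12 := by omega
    rw [h5] at h2
    omega

end CfsgLib.Leech
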