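import Mathlib
import Cfsg.Agent.Leech.Monster.Orbits
import Cfsg.Agent.Eq.Def_Transfer

set_option autoImplicit false

/-! The centraliser of a conjugate of `z` in `Q`, modulo `Q`. -/

namespace CfsgLib.Leech

open Cfsg

variable {G : Type*} [Group G] [Finite G] {z : G}
variable {Q : Subgroup (Subgroup.centralizer ({z} : Set G))} [Q.Normal]
variable {e : (Subgroup.centralizer ({z} : Set G)) ⧸ Q ≃* Spor.Co1}
variable {ψ : leechLattice → Q ⧸ Subgroup.center Q}

/-- A conjugate of the automorphism group mapped onto `C/Q`. -/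
noncomputable def toQuot (e : (Subgroup.centralizer ({z} : Set G)) ⧸ Q ≃* Spor.Co1) (t : Co0) :
    Co0 →* (Subgroup.centralizer ({z} : Set G)) ⧸ Q :=
  e.symm.toMonoidHom.comp ((QuotientGroup.mk' (Subgroup.center Co0)).comp
    (MulAut.conj t⁻¹).toMonoidHom)

theorem toQuot_apply (t γ : Co0) :
    toQuot e t γ = e.symm (QuotientGroup.mk (t⁻¹ * γ * t)) := by
  show e.symm (QuotientGroup.mk (t⁻¹ * γ * t⁻¹⁻¹)) = _
  rw [inv_inv]

theorem Match.eq_symm {k : Subgroup.centralizer ({z} : Set G)} {γ : Co0} (h : Match e k γ) :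
    (QuotientGroup.mk k : (Subgroup.centralizer ({z} : Set G)) ⧸ Q) = e.symm (QuotientGroup.mk γ) := by
  rw [h, MulEquiv.symm_apply_apply]

theorem toQuot_eq_one {t γ : Co0} (h : toQuot e t γ = 1) : γ = 1 ∨ γ = negOne := by
  rw [toQuot_apply, MulEquiv.map_eq_one_iff, QuotientGroup.eq_one_iff] at h
  have h' : γ ∈ Subgroup.center Co0 := by
    have hn : (Subgroup.center Co0).Normal := inferInstance
    have := hn.conj_mem _ h t
    simpa [mul_assoc] using this
  exact center_co0_cases h'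

variable (hc : Ctx z Q e ψ)
include hc

theorem Ctx.split_structure {g : G} {sq : Q} (hp : ConjPair z Q g sq)
    (X E : Subgroup ((Subgroup.centralizer ({z} : Set G)) ⧸ Q))
    (hX : ∀ x, x ∈ X ↔ ∃ k : Subgroup.centralizer ({z} : Set G),
      k * sq = sq * k ∧ QuotientGroup.mk k = x)
    (hE : E = (interC z Q g).map (QuotientGroup.mk' Q)) :
    E ≤ X ∧ (∀ x ∈ X, ∀ y ∈ E, x * y * x⁻¹ ∈ E) ∧ IsElementaryAbelian 2 E ∧
      Nat.card E = 2 ^ 11 ∧ ∃ K : Subgroup ((Subgroup.centralizer ({z} : Set G)) ⧸ Q),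
        K ≤ X ∧ E ⊓ K = ⊥ ∧ E ⊔ K = X ∧ Nonempty (K ≃* M24) := by
  obtain ⟨v, hv⟩ := hc.exists_class sq
  obtain ⟨t, ht⟩ := hc.class_frame hp hv
  have ht' : Cg (t⁻¹ • axisVec none) v := by simpa using (ht.smul t⁻¹).symm
  obtain ⟨-, hcardE, hlift⟩ := hc.meet_orders hp hv ht
  have hXF : X = frameStab.map (toQuot e t) := by
    ext x
    rw [hX]
    constructor
    · rintro ⟨k, hk, rfl⟩
      obtain ⟨γ, hγ⟩ := exists_match_right (e := e) k
      have h1 := hc.conj_class hγ hv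
      rw [show (⟨k * sq * k⁻¹, (inferInstance : Q.Normal).conj_mem _ sq.2 k⟩ : Q) = sq from
        Subtype.ext (by show k * _ * k⁻¹ = _; rw [hk, mul_inv_cancel_right])] at h1
      have hfix := (psi_eq_iff hc.iso _ _).1 (h1.trans hv.symm)
      refine ⟨t * γ * t⁻¹, ?_, ?_⟩
      · show Cg ((t * γ * t⁻¹) • axisVec none) (axisVec none)
        rw [mul_smul, mul_smul]
        exact (((ht'.smul γ).trans hfix).smul t).trans ht
      · rw [toQuot_apply, hγ.eq_symm]
        congr 2; group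
    · rintro ⟨δ, hδ, rfl⟩
      have hfix : Cg ((t⁻¹ * δ * t) • v) v := by
        rw [mul_smul, mul_smul]
        exact (((ht.smul δ).trans hδ).smul t⁻¹).trans ht'
      obtain ⟨k, hk, hks⟩ := hc.exists_conj hv hv hfix
        (fun e0 => hc.sq_noncentral hp ((hc.class_zero hv).1 e0))
      exact ⟨k, mul_inv_eq_iff_eq_mul.1 hks, by rw [toQuot_apply, hk.eq_symm]⟩
  have hEF : E = signsHom.range.map (toQuot e t) := by
    rw [hE]
    ext x
    constructor
    · rintro ⟨r, hr, rfl⟩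
      obtain ⟨γ, hγ⟩ := exists_match_right (e := e) r
      refine ⟨t * γ * t⁻¹, ?_, ?_⟩
      · rw [SetLike.mem_coe, ← hlift]
        exact ⟨γ, (hc.mem_liftE hp).2 ⟨r, hr, hγ⟩, rfl⟩
      · rw [toQuot_apply, QuotientGroup.mk'_apply, hγ.eq_symm]
        congr 2; group
    · rintro ⟨δ, hδ, rfl⟩
      rw [SetLike.mem_coe, ← hlift] at hδ
      obtain ⟨γ, hγ, rfl⟩ := hδ
      obtain ⟨r, hr, hm⟩ := (hc.mem_liftE hp).1 hγ
      refine ⟨r, hr, ?_⟩
      rw [toQuot_apply, QuotientGroup.mk'_apply, hm.eq_symm]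
      congr 2
      show γ = t⁻¹ * (t * γ * t⁻¹) * t
      group
  have hsF : signsHom.range ≤ frameStab := by
    rintro _ ⟨c, rfl⟩
    exact signs_mem_frameStab c.toAdd.1 c.toAdd.2
  have hpF : permHom.range ≤ frameStab := by
    rintro _ ⟨σ, rfl⟩
    exact permHom_mem_frameStab σ
  have hpart : ∀ (c : GolayPt → ZMod 2) (hcc : c ∈ golayCode),
      framePart ⟨signs c hcc, signs_mem_frameStab c hcc⟩ = 1 := by
    intro c hcc
    have h : signs c hcc = monomial (⟨c, hcc⟩, 1) := by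
      simp only [monomial, map_one, mul_one]
    have := framePart_monomial (⟨c, hcc⟩, 1) (h ▸ signs_mem_frameStab c hcc)
    simpa [h] using this
  refine ⟨?_, ?_, ⟨?_, ?_⟩, by rw [hE]; exact hcardE,
    permHom.range.map (toQuot e t), ?_, ?_, ?_, ?_⟩
  · rw [hXF, hEF]; exact Subgroup.map_mono hsF
  · rw [hXF, hEF]
    rintro _ ⟨δ, hδ, rfl⟩ _ ⟨_, ⟨c, rfl⟩, rfl⟩
    refine ⟨δ * signsHom c * δ⁻¹, ?_, by rw [map_mul, map_mul, map_inv]⟩
    have hmem : δ * signsHom c * δ⁻¹ ∈ frameStab :=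
      mul_mem (mul_mem hδ (hsF ⟨c, rfl⟩)) (inv_mem hδ)
    have h1 : framePart ⟨δ * signsHom c * δ⁻¹, hmem⟩ = 1 := by
      have : (⟨δ * signsHom c * δ⁻¹, hmem⟩ : frameStab) =
          ⟨δ, hδ⟩ * ⟨signsHom c, hsF ⟨c, rfl⟩⟩ * ⟨δ, hδ⟩⁻¹ := rfl
      rw [this, map_mul, map_mul, map_inv]
      rw [show framePart ⟨signsHom c, hsF ⟨c, rfl⟩⟩ = 1 from hpart c.toAdd.1 c.toAdd.2]
      group
    obtain ⟨d, hd, hde⟩ := framePart_eq_one h1
    exact ⟨Multiplicative.ofAdd ⟨d, hd⟩, hde.symm⟩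
  · rw [hEF]
    refine ⟨⟨fun a b => ?_⟩⟩
    obtain ⟨_, _, ⟨c, rfl⟩, rfl⟩ := a
    obtain ⟨_, _, ⟨d, rfl⟩, rfl⟩ := b
    apply Subtype.ext
    show toQuot e t (signsHom c) * toQuot e t (signsHom d) =
      toQuot e t (signsHom d) * toQuot e t (signsHom c)
    rw [← map_mul, ← map_mul, ← map_mul, ← map_mul, mul_comm]
  · rw [hEF]
    rintro _ ⟨_, ⟨c, rfl⟩, rfl⟩
    rw [← map_pow, ← map_pow, pow_two, show c * c = 1 from
      Multiplicative.toAdd.injective (Subtype.ext (funext fun i => CharTwo.add_self_eq_zero _)),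
      map_one, map_one]
  · rw [hXF]; exact Subgroup.map_mono hpF
  · rw [eq_bot_iff, hEF]
    rintro x ⟨⟨_, ⟨c, rfl⟩, rfl⟩, ⟨_, ⟨σ, rfl⟩, hσ⟩⟩
    have h1 : toQuot e t ((signsHom c)⁻¹ * permHom σ) = 1 := by
      rw [map_mul, map_inv, hσ, inv_mul_cancel]
    have hneg : framePart ⟨negOne, signs_mem_frameStab 1 one_mem_code⟩ = 1 := hpart 1 one_mem_code
    have key : ∀ (m : Co0) (hm : m ∈ frameStab), (m = 1 ∨ m = negOne) →
        framePart ⟨m, hm⟩ = 1 := by
      rintro m hm (rfl | rfl)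
      · exact map_one framePart
      · exact hneg
    have hmem : (signsHom c)⁻¹ * permHom σ ∈ frameStab :=
      mul_mem (inv_mem (hsF ⟨c, rfl⟩)) (permHom_mem_frameStab σ)
    have h2 := key _ hmem (toQuot_eq_one h1)
    have : (⟨(signsHom c)⁻¹ * permHom σ, hmem⟩ : frameStab) =
        ⟨signsHom c, hsF ⟨c, rfl⟩⟩⁻¹ * ⟨permHom σ, permHom_mem_frameStab σ⟩ := rfl
    rw [this, map_mul, map_inv, framePart_permHom,
      show framePart ⟨signsHom c, hsF ⟨c, rfl⟩⟩ = 1 from hpart c.toAdd.1 c.toAdd.2, inv_one, one_mul] at h2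
    rw [Subgroup.mem_bot, ← hσ, h2, map_one, map_one]
  · rw [hXF, hEF, ← Subgroup.map_sup]
    congr 1
    refine le_antisymm (sup_le hsF hpF) fun δ hδ => ?_
    obtain ⟨x, rfl⟩ := frame_decomp hδ
    exact Subgroup.mul_mem_sup ⟨Multiplicative.ofAdd x.1, rfl⟩ ⟨x.2, rfl⟩
  · have hinj : Function.Injective ((toQuot e t).comp permHom) := by
      refine (injective_iff_map_eq_one _).2 fun σ hσ => ?_
      have h2 := toQuot_eq_one (t := t) (γ := permHom σ) hσ
      have h3 : framePart ⟨permHom σ, permHom_mem_frameStab σ⟩ = 1 := by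
        rcases h2 with h2 | h2
        · rw [show (⟨permHom σ, permHom_mem_frameStab σ⟩ : frameStab) = 1 from Subtype.ext h2,
            map_one]
        · rw [show (⟨permHom σ, permHom_mem_frameStab σ⟩ : frameStab) =
            ⟨negOne, signs_mem_frameStab 1 one_mem_code⟩ from Subtype.ext h2]
          exact hpart 1 one_mem_code
      rwa [framePart_permHom] at h3
    refine ⟨((MonoidHom.ofInjective hinj).trans (MulEquiv.subgroupCongr ?_)).symm⟩
    rw [MonoidHom.range_comp]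

end CfsgLib.Leech
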